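import Mathlib
import Cfsg.Agent.Lib.SSCls.Basic
import Cfsg.Agent.Lib.ClGeo.Transv

/-!
Coverings of a group by the conjugates of two proper subgroups: generalities and the linear groups
of dimension at most four.
-/

set_option autoImplicit false
set_option linter.unusedSectionVars false

namespace H82.Cov2

open Polynomial Matrix

/-- The group is the union of the conjugates of two proper subgroups. -/
def Cov (G : Type*) [Group G] : Prop :=
  ∃ H K : Subgroup G, H ≠ ⊤ ∧ K ≠ ⊤ ∧ ∀ g : G, ∃ x : G, x * g * x⁻¹ ∈ H ∨ x * g * x⁻¹ ∈ K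

section General

variable {G : Type*} [Group G]

/-- A family of pairwise conjugate proper subgroups containing `Z`. -/
structure Good (Z : Subgroup G) (S : Set (Subgroup G)) : Prop where
  ne : ∀ H ∈ S, H ≠ ⊤
  le : ∀ H ∈ S, Z ≤ H
  conj : ∀ H ∈ S, ∀ H' ∈ S, ∃ a : G, ∀ g ∈ H, a * g * a⁻¹ ∈ H'

theorem exists_pair {Z : Subgroup G} {S T : Set (Subgroup G)} (hS : Good Z S) (hT : Good Z T)
    (h : ∀ g, (∃ H ∈ S, g ∈ H) ∨ ∃ H ∈ T, g ∈ H) :
    ∃ H K : Subgroup G, H ≠ ⊤ ∧ K ≠ ⊤ ∧ Z ≤ H ∧ Z ≤ K ∧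
      ∀ g : G, ∃ x : G, x * g * x⁻¹ ∈ H ∨ x * g * x⁻¹ ∈ K := by
  have one : ∀ {S : Set (Subgroup G)}, Good Z S → (∀ g, ∃ H ∈ S, g ∈ H) →
      ∃ H K : Subgroup G, H ≠ ⊤ ∧ K ≠ ⊤ ∧ Z ≤ H ∧ Z ≤ K ∧
        ∀ g : G, ∃ x : G, x * g * x⁻¹ ∈ H ∨ x * g * x⁻¹ ∈ K := by
    intro S hS h
    obtain ⟨H, hH, -⟩ := h 1
    refine ⟨H, H, hS.ne H hH, hS.ne H hH, hS.le H hH, hS.le H hH, fun g => ?_⟩
    obtain ⟨H', hH', hg⟩ := h g
    obtain ⟨a, ha⟩ := hS.conj H' hH' H hH
    exact ⟨a, Or.inl (ha g hg)⟩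
  rcases S.eq_empty_or_nonempty with rfl | ⟨H, hH⟩
  · exact one hT fun g => by simpa using h g
  rcases T.eq_empty_or_nonempty with rfl | ⟨K, hK⟩
  · exact one hS fun g => by simpa using h g
  refine ⟨H, K, hS.ne H hH, hT.ne K hK, hS.le H hH, hT.le K hK, fun g => ?_⟩
  rcases h g with ⟨H', hH', hg⟩ | ⟨H', hH', hg⟩
  · obtain ⟨a, ha⟩ := hS.conj H' hH' H hH
    exact ⟨a, Or.inl (ha g hg)⟩
  · obtain ⟨a, ha⟩ := hT.conj H' hH' K hK
    exact ⟨a, Or.inr (ha g hg)⟩

theorem cov_of {S T : Set (Subgroup G)} (hS : Good ⊥ S) (hT : Good ⊥ T)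
    (h : ∀ g, (∃ H ∈ S, g ∈ H) ∨ ∃ H ∈ T, g ∈ H) : Cov G := by
  obtain ⟨H, K, h1, h2, -, -, h3⟩ := exists_pair hS hT h
  exact ⟨H, K, h1, h2, h3⟩

theorem cov_quot {Z : Subgroup G} [Z.Normal] {S T : Set (Subgroup G)} (hS : Good Z S)
    (hT : Good Z T) (h : ∀ g, (∃ H ∈ S, g ∈ H) ∨ ∃ H ∈ T, g ∈ H) : Cov (G ⧸ Z) := by
  obtain ⟨H, K, h1, h2, h3, h4, h5⟩ := exists_pair hS hT h
  have key : ∀ H : Subgroup G, H ≠ ⊤ → Z ≤ H → H.map (QuotientGroup.mk' Z) ≠ ⊤ := by
    intro H h1 h2 h3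
    apply h1
    have := Subgroup.comap_map_eq (QuotientGroup.mk' Z) H
    rw [h3, Subgroup.comap_top, QuotientGroup.ker_mk', sup_eq_left.2 h2] at this
    exact this.symm
  refine ⟨_, _, key H h1 h3, key K h2 h4, fun g => ?_⟩
  obtain ⟨g, rfl⟩ := QuotientGroup.mk'_surjective Z g
  obtain ⟨x, hx⟩ := h5 g
  refine ⟨QuotientGroup.mk' Z x, ?_⟩
  rw [← map_inv, ← map_mul, ← map_mul]
  exact hx.imp (Subgroup.mem_map_of_mem _) (Subgroup.mem_map_of_mem _)

/-- A submonoid of a finite group as a subgroup. -/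
def toSub [Finite G] (S : Submonoid G) : Subgroup G where
  toSubmonoid := S
  inv_mem' {g} hg := by
    have h : g⁻¹ = g ^ (orderOf g - 1) := by
      rw [inv_eq_iff_mul_eq_one, ← pow_succ', Nat.sub_add_cancel (orderOf_pos g),
        pow_orderOf_eq_one]
    rw [h]; exact S.pow_mem hg _

variable {F V : Type*} [Field F] [AddCommGroup V] [Module F V]

/-- The stabiliser of a subspace. -/
def sst [Finite G] (ρ : G →* Module.End F V) (W : Submodule F V) : Subgroup G :=
  toSub { carrier := {g | ∀ v ∈ W, ρ g v ∈ W}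
          mul_mem' := fun {a b} ha hb v hv => by rw [map_mul]; exact ha _ (hb v hv)
          one_mem' := fun v hv => by rw [map_one]; exact hv }

theorem mem_sst [Finite G] {ρ : G →* Module.End F V} {W : Submodule F V} {g : G} :
    g ∈ sst ρ W ↔ ∀ v ∈ W, ρ g v ∈ W := Iff.rfl

theorem mem_sst_span [Finite G] {ρ : G →* Module.End F V} {s : Set V} {g : G}
    (h : ∀ v ∈ s, ρ g v ∈ Submodule.span F s) : g ∈ sst ρ (Submodule.span F s) := by
  intro v hv
  have : Submodule.span F s ≤ (Submodule.span F s).comap (ρ g) := Submodule.span_le.2 h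
  exact this hv

theorem rho_inv (ρ : G →* Module.End F V) (a : G) (v : V) : ρ a⁻¹ (ρ a v) = v := by
  rw [← Module.End.mul_apply, ← map_mul, inv_mul_cancel, map_one, Module.End.one_apply]

theorem rho_inv' (ρ : G →* Module.End F V) (a : G) (v : V) : ρ a (ρ a⁻¹ v) = v := by
  rw [← Module.End.mul_apply, ← map_mul, mul_inv_cancel, map_one, Module.End.one_apply]

theorem conj_mem_sst [Finite G] {ρ : G →* Module.End F V} {W W' : Submodule F V} {a : G}
    (h : W.map (ρ a) = W') {g : G} (hg : g ∈ sst ρ W) : a * g * a⁻¹ ∈ sst ρ W' := by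
  subst h
  rintro _ ⟨v, hv, rfl⟩
  rw [map_mul, map_mul, Module.End.mul_apply, Module.End.mul_apply, rho_inv]
  exact ⟨_, hg v hv, rfl⟩

theorem map_span_range {ι : Type*} (f : Module.End F V) {u v : ι → V} (h : ∀ i, f (u i) = v i) :
    (Submodule.span F (Set.range u)).map f = Submodule.span F (Set.range v) := by
  rw [Submodule.map_span, ← Set.range_comp]
  congr 2
  exact funext h

theorem smul_mem_sst [Finite G] {ρ : G →* Module.End F V} (W : Submodule F V) {g : G} {c : F}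
    (h : ∀ v, ρ g v = c • v) : g ∈ sst ρ W := fun v hv => by rw [h]; exact W.smul_mem _ hv

end General

section Poly

variable {F : Type*} [Field F]

theorem sub_dvd_aeval_sub (f p p' : F[X]) : p - p' ∣ aeval p f - aeval p' f := by
  rw [aeval_def, aeval_def, eval₂_eq_eval_map, eval₂_eq_eval_map]
  exact sub_dvd_eval_sub _ _ _

theorem exists_dvd_pow (f : F[X]) {χ : F[X]} (h0 : χ ≠ 0)
    (h : ∀ π, Irreducible π → π ∣ χ → ∃ p : F[X], π ∣ aeval p f) :
    ∃ (p : F[X]) (N : ℕ), χ ∣ aeval p f ^ N := by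
  induction χ using WfDvdMonoid.induction_on_irreducible with
  | zero => exact absurd rfl h0
  | unit u hu => exact ⟨0, 0, hu.dvd⟩
  | mul χ π hχ hπ ih =>
    obtain ⟨p', N, h1⟩ := ih hχ fun ρ hρ hd => h ρ hρ (hd.mul_left _)
    by_cases hd : π ∣ χ
    · exact ⟨p', N + N, by rw [pow_add]; exact mul_dvd_mul (hd.trans h1) h1⟩
    · obtain ⟨p, hp⟩ := h π hπ (dvd_mul_right _ _)
      obtain ⟨a, b, hab⟩ := hπ.coprime_iff_not_dvd.2 hd
      refine ⟨p' * (a * π) + p * (b * χ), N + 1, ?_⟩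
      rw [pow_succ']
      refine mul_dvd_mul ?_ ?_
      · have h2 := sub_dvd_aeval_sub f (p' * (a * π) + p * (b * χ)) p
        have h3 : π ∣ p' * (a * π) + p * (b * χ) - p :=
          ⟨(p' - p) * a, by linear_combination p * hab⟩
        simpa using dvd_add (h3.trans h2) hp
      · have h2 := sub_dvd_aeval_sub f (p' * (a * π) + p * (b * χ)) p'
        have h3 : χ ∣ p' * (a * π) + p * (b * χ) - p' :=
          ⟨(p - p') * b, by linear_combination p' * hab⟩
        have h4 := (h3.trans h2).trans (sub_dvd_pow_sub_pow _ _ N)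
        simpa using dvd_add h4 h1

variable [Finite F]

theorem exists_root_mod {f π : F[X]} (hf : Irreducible f) (hπ : Irreducible π)
    (hd : f.natDegree ∣ π.natDegree) : ∃ p : F[X], π ∣ aeval p f := by
  have := Fact.mk hf
  have := Fact.mk hπ
  have := H65.finiteDimensional_adjoinRoot hπ.ne_zero
  have : Finite (AdjoinRoot π) := Module.finite_of_finite F
  obtain ⟨φ⟩ := FiniteField.nonempty_algHom_of_finrank_dvd (F := F) (K := AdjoinRoot f)
    (L := AdjoinRoot π) (by rwa [H65.finrank_adjoinRoot, H65.finrank_adjoinRoot])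
  obtain ⟨p, hp⟩ := AdjoinRoot.mk_surjective (φ (AdjoinRoot.root f))
  refine ⟨p, ?_⟩
  rw [← AdjoinRoot.mk_eq_zero, ← AdjoinRoot.aeval_eq, ← aeval_algHom_apply, AdjoinRoot.aeval_eq, hp,
    aeval_algHom_apply, AdjoinRoot.aeval_eq, AdjoinRoot.mk_self, map_zero]

theorem aeval_pow_card_pow (f p : F[X]) (M : ℕ) :
    aeval (p ^ Nat.card F ^ M) f = aeval p f ^ Nat.card F ^ M := by
  have := Fintype.ofFinite F
  induction M with
  | zero => simp
  | succ M ih =>
    rw [pow_succ, pow_mul, pow_mul, ← ih, ← expand_aeval, Nat.card_eq_fintype_card,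
      FiniteField.expand_card, map_pow]

/-- A root of `f` in the algebra generated by `g`. -/
theorem exists_root {A : Type*} [Ring A] [Algebra F A] (g : A) {χ f : F[X]} (h0 : χ ≠ 0)
    (hχ : aeval g χ = 0) (hf : Irreducible f)
    (h : ∀ π, Irreducible π → π ∣ χ → f.natDegree ∣ π.natDegree) :
    ∃ p : F[X], aeval (aeval g p) f = 0 := by
  obtain ⟨p, N, h1⟩ := exists_dvd_pow f h0 fun π hπ hd => exists_root_mod hf hπ (h π hπ hd)
  refine ⟨p ^ Nat.card F ^ N, ?_⟩
  rw [aeval_algHom_apply, aeval_pow_card_pow]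
  have h2 : N ≤ Nat.card F ^ N := (Nat.lt_pow_self Finite.one_lt_card).le
  obtain ⟨r, hr⟩ := h1.trans (pow_dvd_pow _ h2)
  rw [hr, map_mul, hχ, zero_mul]

theorem exists_irred (F : Type*) [Field F] [Finite F] {d : ℕ} (hd : 0 < d) :
    ∃ f : F[X], f.Monic ∧ Irreducible f ∧ f.natDegree = d := by
  have := Fintype.ofFinite F
  obtain ⟨K, _, _, _, -, hK, -⟩ := H65.exists_extension_generator (F := F) d hd
  have : Module.Finite F K := Module.Finite.of_finite
  let b := Field.powerBasisOfFiniteOfSeparable F K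
  exact ⟨minpoly F b.gen, minpoly.monic b.isIntegral_gen, minpoly.irreducible b.isIntegral_gen,
    by rw [b.natDegree_minpoly, ← b.finrank, hK]⟩

omit [Finite F] in
theorem deg_factor {χ π : F[X]} (h0 : χ ≠ 0) (hr : ∀ c, ¬ χ.IsRoot c) (hπ : Irreducible π)
    (hd : π ∣ χ) : 2 ≤ π.natDegree ∧ π.natDegree ≤ χ.natDegree ∧ π.natDegree + 1 ≠ χ.natDegree := by
  have key : ∀ r : F[X], r ∣ χ → r.natDegree ≠ 1 := by
    intro r hr' h1
    obtain ⟨c, hc⟩ := exists_root_of_degree_eq_one (p := r)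
      (by rw [degree_eq_natDegree (by rintro rfl; simp at h1), h1]; rfl)
    exact hr c (hc.dvd hr')
  refine ⟨?_, natDegree_le_of_dvd hd h0, ?_⟩
  · have := key π hd
    have := hπ.natDegree_pos
    omega
  · obtain ⟨r, rfl⟩ := hd
    have := key r (dvd_mul_left _ _)
    rw [natDegree_mul (left_ne_zero_of_mul h0) (right_ne_zero_of_mul h0)]
    omega

end Poly

section Lin

variable {ι F : Type*} [Fintype ι] [DecidableEq ι] [Field F]

theorem exists_eigen {A : Matrix ι ι F} {c : F} (h : A.charpoly.IsRoot c) :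
    ∃ v, v ≠ 0 ∧ A *ᵥ v = c • v := by
  rw [IsRoot, eval_charpoly] at h
  obtain ⟨v, hv, h1⟩ := Matrix.exists_mulVec_eq_zero_iff.2 h
  refine ⟨v, hv, ?_⟩
  rw [sub_mulVec, sub_eq_zero] at h1
  rw [← h1]; ext i; simp [mulVec_diagonal]

theorem isUnit_aeval_of_coprime {A : Type*} [Ring A] [Algebra F A] {J : A} {f ρ : F[X]}
    (hJ : aeval J f = 0) (h : IsCoprime ρ f) : IsUnit (aeval J ρ) := by
  obtain ⟨a, b, hab⟩ := h
  have h1 := congrArg (aeval J) hab
  rw [map_add, map_mul, map_mul, hJ, mul_zero, add_zero, map_one] at h1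
  refine ⟨⟨aeval J ρ, aeval J a, ?_, h1⟩, rfl⟩
  rw [← map_mul, mul_comm, map_mul, h1]

theorem isConj_of_irred {J J' : Matrix ι ι F} {f : F[X]} (hf : Irreducible f) (hJ : aeval J f = 0)
    (hJ' : aeval J' f = 0) : IsConj J J' := by
  refine H65.isConj_of_rank_irred_pow fun ρ k hρ _ => ?_
  by_cases hd : ρ ∣ f
  · obtain ⟨u, hu⟩ := (hρ.associated_of_dvd hf hd).symm
    rw [← hu, map_mul, map_mul, hJ, hJ', zero_mul, zero_mul]
  · have h := hρ.coprime_iff_not_dvd.2 hd
    rw [rank_of_isUnit _ ((isUnit_aeval_of_coprime hJ h).pow k),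
      rank_of_isUnit _ ((isUnit_aeval_of_coprime hJ' h).pow k)]

theorem ss_of_irred [Finite F] {J : Matrix ι ι F} {f : F[X]} (hf : Irreducible f)
    (hd : 2 ≤ f.natDegree) (hJ : aeval J f = 0) : H72.Cls.SS J := by
  obtain ⟨N, hN, r, hr⟩ := H72.Cls.exists_dvd hf (fun h => by
    have := natDegree_le_of_dvd h X_ne_zero
    rw [natDegree_X] at this; omega)
  refine ⟨N, hN, ?_⟩
  have := congrArg (aeval J) hr
  rwa [map_mul, hJ, zero_mul, map_sub, aeval_X_pow, map_one, sub_eq_zero] at this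

theorem not_eigen {J : Matrix ι ι F} {f : F[X]} (hf : Irreducible f) (hd : 2 ≤ f.natDegree)
    (hJ : aeval J f = 0) {v : ι → F} {c : F} (h : J *ᵥ v = c • v) : v = 0 := by
  have h1 : IsCoprime (X - C c) f := by
    rw [(irreducible_X_sub_C c).coprime_iff_not_dvd]
    intro h2
    have := natDegree_eq_of_degree_eq
      (degree_eq_degree_of_associated ((irreducible_X_sub_C c).associated_of_dvd hf h2))
    rw [natDegree_X_sub_C] at this; omega
  have h2 := isUnit_aeval_of_coprime hJ h1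
  rw [map_sub, aeval_X, aeval_C, Algebra.algebraMap_eq_smul_one] at h2
  apply mulVec_injective_iff_isUnit.2 h2
  rw [sub_mulVec, h, smul_mulVec, one_mulVec, sub_self, mulVec_zero]

/-- the natural representation -/
def slRep (ι F : Type*) [Fintype ι] [DecidableEq ι] [Field F] :
    SpecialLinearGroup ι F →* Module.End F (ι → F) :=
  (Matrix.toLinAlgEquiv' (R := F) (n := ι)).toMonoidHom.comp SpecialLinearGroup.coeMonoidHom

theorem slRep_apply (g : SpecialLinearGroup ι F) (v : ι → F) : slRep ι F g v = g.1 *ᵥ v := rfl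

theorem sl_center {g : SpecialLinearGroup ι F} (hg : g ∈ Subgroup.center _) :
    ∃ c : F, g.1 = c • 1 := by
  obtain ⟨c, -, hc⟩ := Matrix.SpecialLinearGroup.mem_center_iff.1 hg
  exact ⟨c, by rw [← hc, scalar_apply, smul_one_eq_diagonal]⟩

theorem exists_not_mem_span (h2 : 2 ≤ Fintype.card ι) (v : ι → F) :
    ∃ w, w ∉ Submodule.span F {v} := by
  by_contra h
  push Not at h
  have h1 : Submodule.span F {v} = ⊤ := eq_top_iff.2 fun w _ => h w
  have h3 := finrank_span_le_card (R := F) ({v} : Set (ι → F))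
  rw [h1] at h3
  simp at h3
  omega

variable [Finite F]

theorem good_sl_line (h2 : 2 ≤ Fintype.card ι) : Good (Subgroup.center (SpecialLinearGroup ι F))
    {H | ∃ v : ι → F, v ≠ 0 ∧ H = sst (slRep ι F) (Submodule.span F {v})} where
  ne := by
    rintro _ ⟨v, hv, rfl⟩ h
    obtain ⟨w, hw⟩ := exists_not_mem_span h2 v
    obtain ⟨g, hg⟩ := H30.exists_SL_mulVec_eq h2 hv (v := w) (by rintro rfl; exact hw (zero_mem _))
    have h1 : g ∈ sst (slRep ι F) (Submodule.span F {v}) := h ▸ Subgroup.mem_top g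
    have h3 := h1 v (Submodule.mem_span_singleton_self v)
    rw [slRep_apply, hg] at h3
    exact hw h3
  le := by
    rintro _ ⟨v, -, rfl⟩ g hg
    obtain ⟨c, hc⟩ := sl_center hg
    exact smul_mem_sst _ (c := c) fun v => by rw [slRep_apply, hc, smul_mulVec, one_mulVec]
  conj := by
    rintro _ ⟨v, hv, rfl⟩ _ ⟨w, hw, rfl⟩
    obtain ⟨a, ha⟩ := H30.exists_SL_mulVec_eq h2 hv hw
    refine ⟨a, fun g hg => conj_mem_sst ?_ hg⟩
    rw [Submodule.map_span, Set.image_singleton, slRep_apply, ha]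

/-- The centraliser of a matrix. -/
def slCent (J : Matrix ι ι F) : Subgroup (SpecialLinearGroup ι F) :=
  toSub { carrier := {g | g.1 * J = J * g.1}
          mul_mem' := fun {a b} ha hb => by
            change a.1 * b.1 * J = J * (a.1 * b.1)
            rw [mul_assoc, hb, ← mul_assoc, ha, mul_assoc]
          one_mem' := by change 1 * J = J * 1; simp }

theorem good_sl_cent (h2 : 2 ≤ Fintype.card ι) {f : F[X]} (hf : Irreducible f)
    (hd : 2 ≤ f.natDegree) : Good (Subgroup.center (SpecialLinearGroup ι F))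
    {H | ∃ J : Matrix ι ι F, aeval J f = 0 ∧ H = slCent J} where
  ne := by
    rintro _ ⟨J, hJ, rfl⟩ h
    obtain ⟨c, hc⟩ := Matrix.mem_range_scalar_of_commute_transvectionStruct (M := J) fun t => by
      let g : SpecialLinearGroup ι F := ⟨t.toMatrix, t.det⟩
      have : g ∈ slCent J := h ▸ Subgroup.mem_top g
      exact this
    obtain ⟨i⟩ : Nonempty ι := Fintype.card_pos_iff.1 (by omega)
    have h1 := not_eigen hf hd hJ (v := Pi.single i 1) (c := c) (by
      rw [← hc]; ext j; simp [mulVec_diagonal, Pi.single_apply])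
    simpa using congrFun h1 i
  le := by
    rintro _ ⟨J, -, rfl⟩ g hg
    obtain ⟨c, hc⟩ := sl_center hg
    change g.1 * J = J * g.1
    rw [hc]; simp
  conj := by
    rintro _ ⟨J, hJ, rfl⟩ _ ⟨J', hJ', rfl⟩
    have : Nonempty ι := Fintype.card_pos_iff.1 (by omega)
    obtain ⟨c, hc⟩ := isConj_of_irred hf hJ hJ'
    obtain ⟨Z, hZ, hZd⟩ := (ss_of_irred hf hd hJ).exists_commute (c.val.det)⁻¹
    have hc0 : c.val.det ≠ 0 := ((isUnit_iff_isUnit_det _).1 c.isUnit).ne_zero
    let a : SpecialLinearGroup ι F := ⟨c.val * Z, by rw [det_mul, hZd, mul_inv_cancel₀ hc0]⟩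
    have ha : a.1 * J = J' * a.1 := by
      change c.val * Z * J = J' * (c.val * Z)
      rw [mul_assoc, ← hZ.eq, ← mul_assoc, hc.eq, mul_assoc]
    have ha' : (a⁻¹).1 * J' = J * (a⁻¹).1 := by
      have h1 : (a⁻¹).1 * a.1 = 1 := congrArg Subtype.val (inv_mul_cancel a)
      have h2 : a.1 * (a⁻¹).1 = 1 := congrArg Subtype.val (mul_inv_cancel a)
      calc (a⁻¹).1 * J' = (a⁻¹).1 * (J' * a.1) * (a⁻¹).1 := by
            rw [mul_assoc, mul_assoc, h2, mul_one]
        _ = J * (a⁻¹).1 := by rw [← ha, ← mul_assoc, h1, one_mul]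
    refine ⟨a, fun g hg => ?_⟩
    have hg' : g.1 * J = J * g.1 := hg
    change a.1 * g.1 * (a⁻¹).1 * J' = J' * (a.1 * g.1 * (a⁻¹).1)
    rw [mul_assoc, ha', ← mul_assoc, mul_assoc a.1, hg', ← mul_assoc, ha]
    simp only [mul_assoc]

theorem cov_psl (h2 : 2 ≤ Fintype.card ι) (h4 : Fintype.card ι ≤ 4) :
    Cov (ProjectiveSpecialLinearGroup ι F) := by
  obtain ⟨d, hd2, hd⟩ : ∃ d, 2 ≤ d ∧ ∀ k, 2 ≤ k → k ≤ Fintype.card ι → k + 1 ≠ Fintype.card ι →
      d ∣ k := by
    by_cases h3 : Fintype.card ι = 3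
    · exact ⟨3, by norm_num, fun k _ _ _ => by omega⟩
    · exact ⟨2, le_rfl, fun k _ _ _ => by omega⟩
  obtain ⟨f, -, hf, hfd⟩ := exists_irred F (d := d) (by omega)
  refine cov_quot (good_sl_line h2) (good_sl_cent h2 hf (by omega)) fun g => ?_
  by_cases hr : ∃ c, g.1.charpoly.IsRoot c
  · obtain ⟨c, hc⟩ := hr
    obtain ⟨v, hv, h⟩ := exists_eigen hc
    refine Or.inl ⟨_, ⟨v, hv, rfl⟩, mem_sst_span ?_⟩
    rintro _ rfl
    rw [slRep_apply, h]
    exact Submodule.smul_mem _ _ (Submodule.mem_span_singleton_self _)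
  · push Not at hr
    obtain ⟨p, hp⟩ := exists_root g.1 g.1.charpoly_monic.ne_zero (aeval_self_charpoly _) hf
      fun π hπ h => by
        obtain ⟨h1, h2, h3⟩ := deg_factor g.1.charpoly_monic.ne_zero hr hπ h
        rw [charpoly_natDegree_eq_dim] at h2 h3
        rw [hfd]; exact hd _ h1 h2 h3
    refine Or.inr ⟨_, ⟨_, hp, rfl⟩, ?_⟩
    change g.1 * aeval g.1 p = aeval g.1 p * g.1
    conv_lhs => rw [← aeval_X (R := F) g.1, aeval_X (R := F) g.1]
    have : aeval g.1 (X * p) = aeval g.1 (p * X) := by rw [mul_comm]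
    simpa using this

end Lin

end H82.Cov2
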