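import Mathlib
import Cfsg.Agent.Lib.Cov2.Base
import Cfsg.Agent.Lib.Forms.Witt
import Cfsg.Agent.Lib.Sp.Order

/-!
Symplectic groups in characteristic two are covered by the two orthogonal groups (Dye).
-/

set_option autoImplicit false
set_option linter.unusedSectionVars false

namespace H82.Cov2

open Polynomial Matrix

variable {F V G : Type*} [Field F] [AddCommGroup V] [Module F V] [Group G]

/-- `G` acts as the full isometry group of a non-degenerate alternating form. -/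
structure SpData (B : LinearMap.BilinForm F V) (ρ : G →* Module.End F V) (Z : Subgroup G) :
    Prop where
  alt : ∀ x, B x x = 0
  nd : ∀ x, (∀ y, B x y = 0) → x = 0
  iso : ∀ g x y, B (ρ g x) (ρ g y) = B x y
  surj : ∀ t : Module.End F V, (∀ x y, B (t x) (t y) = B x y) → ∃ g, ρ g = t
  cen : ∀ g ∈ Z, ∃ c : F, ρ g = c • 1

/-- the natural representation -/
def spRep (m : ℕ) (F : Type*) [Field F] :
    symplecticGroup (Fin m) F →* Module.End F (Fin m ⊕ Fin m → F) :=
  (Matrix.toLinAlgEquiv' (R := F) (n := Fin m ⊕ Fin m)).toMonoidHom.comp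
    (symplecticGroup (Fin m) F).subtype

theorem spData (m : ℕ) (F : Type*) [Field F] :
    SpData (H11.Sp.bilin m F) (spRep m F) (Subgroup.center _) where
  alt := H11.Sp.form_self
  nd := fun _ h => H11.Sp.eq_zero_of_form_eq_zero h
  iso := H11.Sp.form_apply
  surj := fun t ht => ⟨⟨LinearMap.toMatrix' t, H11.Sp.mem_iff_form.2 fun u v => by
      rw [LinearMap.toMatrix'_mulVec, LinearMap.toMatrix'_mulVec]; exact ht u v⟩,
    Matrix.toLin'_toMatrix' t⟩
  cen := fun g hg => by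
    obtain ⟨c, hc⟩ := H11.Sp.mem_center_iff.1 hg
    refine ⟨c, LinearMap.ext fun v => ?_⟩
    change g.1 *ᵥ v = c • v
    rw [hc, smul_mulVec, one_mulVec]

variable {B : LinearMap.BilinForm F V} {ρ : G →* Module.End F V} {Z : Subgroup G}

theorem SpData.swap (h : SpData B ρ Z) (x y : V) : B x y = -B y x := by
  have := h.alt (x + y)
  simp only [map_add, LinearMap.add_apply, h.alt] at this
  linear_combination this

theorem SpData.exists_tv (h : SpData B ρ Z) (u : V) (c : F) :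
    ∃ g, ∀ v, ρ g v = v + (c * B u v) • u := by
  obtain ⟨g, hg⟩ := h.surj (1 + (B u).smulRight (c • u)) fun x y => by
    simp only [LinearMap.add_apply, Module.End.one_apply, LinearMap.smulRight_apply, map_add,
      map_smul, LinearMap.smul_apply, smul_eq_mul, h.alt]
    rw [h.swap x u]; ring
  exact ⟨g, fun v => by rw [hg]; simp [smul_smul, mul_comm]⟩

theorem SpData.exists_ne (h : SpData B ρ Z) {u : V} (hu : u ≠ 0) : ∃ v, B u v = 1 := by
  obtain ⟨v, hv⟩ : ∃ v, B u v ≠ 0 := by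
    by_contra h1; push Not at h1; exact hu (h.nd u h1)
  exact ⟨(B u v)⁻¹ • v, by simp [hv]⟩

theorem wp_add [Finite F] [CharP F 2] {a b : F} (ha : ¬ ∃ x, a = x ^ 2 + x)
    (hb : ¬ ∃ x, b = x ^ 2 + x) : ∃ x, a + b = x ^ 2 + x := by
  let f : F →+ F := AddMonoidHom.mk' (fun x => x ^ 2 + x) fun x y => by
    rw [CharTwo.add_sq]; ring
  have h1 : Nat.card f.ker = 2 := by
    have : (f.ker : Set F) = {0, 1} := by
      ext x
      change x ^ 2 + x = 0 ↔ x = 0 ∨ x = 1
      rw [show x ^ 2 + x = x * (x + 1) by ring, mul_eq_zero, CharTwo.add_eq_zero]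
    rw [← SetLike.coe_sort_coe, this, Nat.card_coe_set_eq, Set.ncard_pair zero_ne_one]
  have h2 := f.ker.card_mul_index
  have h3 := f.range.card_mul_index
  rw [AddSubgroup.index_ker, h1, ← h3, mul_comm] at h2
  have h4 : f.range.index = 2 := (Nat.eq_of_mul_eq_mul_left Nat.card_pos h2).symm
  obtain ⟨x, hx⟩ := (AddSubgroup.add_mem_iff_of_index_two h4 (a := a) (b := b)).2
    (iff_of_false (fun ⟨x, hx⟩ => ha ⟨x, hx.symm⟩) fun ⟨x, hx⟩ => hb ⟨x, hx.symm⟩)
  exact ⟨x, hx.symm⟩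

/-- quadratic forms polarising to `B` -/
structure IsQ (B : LinearMap.BilinForm F V) (Q : V → F) : Prop where
  add : ∀ x y, Q (x + y) = Q x + Q y + B x y
  smul : ∀ (c : F) x, Q (c • x) = c ^ 2 * Q x

/-- the stabiliser of a function -/
def fst [Finite G] (ρ : G →* Module.End F V) (Q : V → F) : Subgroup G :=
  toSub { carrier := {g | ∀ v, Q (ρ g v) = Q v}
          mul_mem' := fun {a b} ha hb v => by rw [map_mul, Module.End.mul_apply, ha, hb]
          one_mem' := fun v => by rw [map_one]; rfl }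

variable [Finite F] [CharP F 2] [Finite G] [FiniteDimensional F V]

theorem IsQ.shift {Q : V → F} (hQ : IsQ B Q) (w : V) : IsQ B fun v => Q v + B w v ^ 2 where
  add x y := by rw [hQ.add, map_add, CharTwo.add_sq]; ring
  smul c x := by rw [hQ.smul, map_smul, smul_eq_mul]; ring

theorem IsQ.tv (h : SpData B ρ Z) {Q : V → F} (hQ : IsQ B Q) (u v : V) (c : F) :
    Q (v + (c * B u v) • u) = Q v + (c + c ^ 2 * Q u) * B u v ^ 2 := by
  rw [hQ.add, hQ.smul, map_smul, h.swap v u, CharTwo.neg_eq, smul_eq_mul]; ring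

theorem good_quad (h : SpData B ρ Z) {Q : V → F} (hQ : IsQ B Q)
    (h4 : ∃ u u', u ≠ 0 ∧ u' ≠ 0 ∧ u + u' ≠ 0 ∧ B u u' = 0) (P : F → Prop)
    (hP : ∀ a b, P a → P b → ∃ x, a + b = x ^ 2 + x) :
    Good Z {H | ∃ w, P (Q w) ∧ H = fst ρ fun v => Q v + B w v ^ 2} where
  ne := by
    rintro _ ⟨w, -, rfl⟩ htop
    have hQ' := hQ.shift w
    generalize (fun v => Q v + B w v ^ 2) = Q' at htop hQ'
    have key : ∀ u, u ≠ 0 → Q' u = 1 := by
      intro u hu
      obtain ⟨g, hg⟩ := h.exists_tv u 1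
      obtain ⟨v, hv⟩ := h.exists_ne hu
      have h1 : g ∈ fst ρ Q' := htop ▸ Subgroup.mem_top g
      have h2 := h1 v
      rw [hg, hQ'.tv h, hv] at h2
      rw [← CharTwo.add_eq_zero]
      linear_combination h2
    obtain ⟨u, u', h1, h2, h3, h4⟩ := h4
    have := hQ'.add u u'
    rw [key _ h1, key _ h2, key _ h3, h4, CharTwo.add_self_eq_zero, add_zero] at this
    exact one_ne_zero this
  le := by
    rintro _ ⟨w, -, rfl⟩ g hg v
    have hQ' := hQ.shift w
    generalize (fun v => Q v + B w v ^ 2) = Q' at hQ'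
    obtain ⟨c, hc⟩ := h.cen g hg
    by_cases hv : v = 0
    · rw [hv, map_zero]
    obtain ⟨y, hy⟩ := h.exists_ne hv
    have h1 := h.iso g v y
    simp only [hc, LinearMap.smul_apply, Module.End.one_apply, map_smul, hy, smul_eq_mul] at h1
    rw [hc, LinearMap.smul_apply, Module.End.one_apply, hQ'.smul]
    linear_combination Q' v * h1
  conj := by
    rintro _ ⟨w, hw, rfl⟩ _ ⟨w', hw', rfl⟩
    have hQ' := hQ.shift w
    obtain ⟨x, hx⟩ := hP _ _ hw hw'
    obtain ⟨c, hc⟩ : ∃ c, c + c ^ 2 * (Q (w + w') + B w (w + w') ^ 2) = 1 := by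
      have h1 : Q (w + w') + B w (w + w') ^ 2 = (x + B w w') ^ 2 + (x + B w w') := by
        rw [hQ.add, hx, map_add, h.alt, CharTwo.add_sq x]; ring
      rw [h1]
      generalize x + B w w' = y
      by_cases h0 : y ^ 2 + y = 0
      · exact ⟨1, by rw [h0]; ring⟩
      · refine ⟨y / (y ^ 2 + y), ?_⟩
        have h2 : y / (y ^ 2 + y) * (y ^ 2 + y) = y := div_mul_cancel₀ _ h0
        apply mul_right_cancel₀ h0
        linear_combination (1 + y / (y ^ 2 + y) * (y ^ 2 + y) + y) * h2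
    obtain ⟨a, ha⟩ := h.exists_tv (w + w') c
    have h1 : ∀ v, Q (ρ a v) + B w (ρ a v) ^ 2 = Q v + B w' v ^ 2 := by
      intro v
      have := hQ'.tv h (w + w') v c
      rw [ha, this, hc, map_add, LinearMap.add_apply, CharTwo.add_sq]
      linear_combination B w v ^ 2 * CharTwo.two_eq_zero (R := F)
    refine ⟨a⁻¹, fun g hg v => ?_⟩
    simp only [inv_inv, map_mul, Module.End.mul_apply]
    rw [← h1, rho_inv', ← h1]
    exact hg _

theorem exists_fixed_quad (h : SpData B ρ Z) {Q : V → F} (hQ : IsQ B Q) (g : G) :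
    ∃ w, g ∈ fst ρ fun v => Q v + B w v ^ 2 := by
  let s := (frobeniusEquiv F 2).symm
  have hs : ∀ a, s a ^ 2 = a := fun a => (frobeniusEquiv F 2).apply_symm_apply a
  have hs' : ∀ a, s (a ^ 2) = a := fun a => (frobeniusEquiv F 2).symm_apply_apply a
  let l : V →ₗ[F] F :=
    { toFun := fun v => s (Q (ρ g v) + Q v)
      map_add' := fun x y => by
        rw [← map_add s, map_add (ρ g), hQ.add, hQ.add, h.iso]
        congr 1
        linear_combination B x y * CharTwo.two_eq_zero (R := F)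
      map_smul' := fun c x => by
        rw [map_smul, hQ.smul, hQ.smul, ← mul_add, map_mul, hs']; rfl }
  have hl : l ∈ (LinearMap.ker (ρ g - 1)).dualAnnihilator := by
    rw [Submodule.mem_dualAnnihilator]
    intro v hv
    have : ρ g v = v := sub_eq_zero.1 hv
    change s (Q (ρ g v) + Q v) = 0
    rw [this, CharTwo.add_self_eq_zero, map_zero]
  rw [← LinearMap.range_dualMap_eq_dualAnnihilator_ker] at hl
  obtain ⟨f, hf⟩ := hl
  obtain ⟨w, hw⟩ := H28.exists_repr_dual (σ := RingHom.id F) (fun _ => rfl) B h.nd f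
  refine ⟨w, fun v => ?_⟩
  have h1 : f (ρ g v - v) = s (Q (ρ g v) + Q v) := LinearMap.congr_fun hf v
  have h2 := hs (Q (ρ g v) + Q v)
  rw [← h1, ← hw, map_sub, CharTwo.sub_eq_add, CharTwo.add_sq] at h2
  simp only
  linear_combination -h2 + (B w (ρ g v) ^ 2 - Q v) * CharTwo.two_eq_zero (R := F)

theorem cov_sp_even_abs [Z.Normal] (h : SpData B ρ Z) {Q : V → F} (hQ : IsQ B Q)
    (h4 : ∃ u u', u ≠ 0 ∧ u' ≠ 0 ∧ u + u' ≠ 0 ∧ B u u' = 0) : Cov (G ⧸ Z) := by
  refine cov_quot (good_quad h hQ h4 (fun a => ∃ x, a = x ^ 2 + x) ?_)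
    (good_quad h hQ h4 (fun a => ¬ ∃ x, a = x ^ 2 + x) fun a b => wp_add) fun g => ?_
  · rintro _ _ ⟨x, rfl⟩ ⟨y, rfl⟩
    exact ⟨x + y, by rw [CharTwo.add_sq]; ring⟩
  · obtain ⟨w, hw⟩ := exists_fixed_quad h hQ g
    by_cases h1 : ∃ x, Q w = x ^ 2 + x
    · exact Or.inl ⟨_, ⟨w, h1, rfl⟩, hw⟩
    · exact Or.inr ⟨_, ⟨w, h1, rfl⟩, hw⟩

theorem cov_psp_even {m : ℕ} (hm : 2 ≤ m) : Cov (Cfsg.PSp m F) := by
  refine cov_sp_even_abs (spData m F) (Q := fun v => ∑ i, v (Sum.inl i) * v (Sum.inr i)) ⟨?_, ?_⟩ ?_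
  · intro x y
    rw [H11.Sp.bilin_apply, H11.Sp.form_eq_sum, ← Finset.sum_add_distrib, ← Finset.sum_add_distrib]
    refine Finset.sum_congr rfl fun i _ => ?_
    rw [CharTwo.sub_eq_add]; simp only [Pi.add_apply]; ring
  · intro c x
    rw [Finset.mul_sum]
    refine Finset.sum_congr rfl fun i _ => ?_
    simp only [Pi.smul_apply, smul_eq_mul]; ring
  · refine ⟨Pi.single (Sum.inl ⟨0, by omega⟩) 1, Pi.single (Sum.inl ⟨1, by omega⟩) 1, ?_, ?_, ?_, ?_⟩
    · simp
    · simp
    · intro h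
      have := congrFun h (Sum.inl ⟨0, by omega⟩)
      rw [Pi.add_apply, Pi.single_eq_same, Pi.single_eq_of_ne (by simp [Fin.ext_iff])] at this
      simp at this
    · rw [H11.Sp.bilin_apply, H11.Sp.form_single_inl_left]; simp

end H82.Cov2
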