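import Mathlib
import Cfsg.Agent.Lib.Cov2.SpEven
import Cfsg.Agent.Lib.Syl2.Oct

/-!
`G₂(2^a)` is covered by the stabilisers of the two kinds of separable quadratic subalgebras.
-/

set_option autoImplicit false
set_option linter.unusedSectionVars false
set_option linter.unusedSimpArgs false

namespace H82.Cov2

open Matrix Cfsg.Lie H82.Oct QuadraticMap

variable {F : Type*} [Field F]

/-- same orbit -/
def Rel (x y : Fin 8 → F) : Prop := ∃ g : G2 F, g.1.val *ᵥ x = y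

theorem Rel.refl (x : Fin 8 → F) : Rel x x := ⟨1, one_mulVec x⟩

theorem Rel.trans {x y z : Fin 8 → F} (h : Rel x y) (h' : Rel y z) : Rel x z := by
  obtain ⟨g, rfl⟩ := h
  obtain ⟨g', rfl⟩ := h'
  exact ⟨g' * g, by rw [mulVec_mulVec]; rfl⟩

theorem Rel.symm {x y : Fin 8 → F} (h : Rel x y) : Rel y x := by
  obtain ⟨g, rfl⟩ := h
  exact ⟨g⁻¹, gl_inv_mulVec g.1 x⟩

theorem rel_of (f : (Fin 8 → F) → Fin 8 → F) (h1 : ∀ x y, f (x + y) = f x + f y)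
    (h2 : ∀ (c : F) x, f (c • x) = c • f x) (h3 : ∀ x y, f (zornMul x y) = zornMul (f x) (f y))
    (h4 : ∀ x, nm F (f x) = nm F x) (x : Fin 8 → F) : Rel x (f x) := by
  let l : Module.End F (Fin 8 → F) := ⟨⟨f, h1⟩, h2⟩
  have hl : Function.Injective l := by
    rw [injective_iff_map_eq_zero]
    intro v hv
    refine nondeg_nm v fun y => ?_
    have hv' : f v = 0 := hv
    rw [polar, ← h4 (v + y), ← h4 v, ← h4 y, h1, hv']
    simp
  have hu : IsUnit (LinearMap.toMatrix' l) := by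
    rw [← mulVec_injective_iff_isUnit]
    intro a b hab
    simp only [LinearMap.toMatrix'_mulVec] at hab
    exact hl hab
  refine ⟨⟨hu.unit, fun x y => ?_⟩, LinearMap.toMatrix'_mulVec l x⟩
  change LinearMap.toMatrix' l *ᵥ _ = zornMul (LinearMap.toMatrix' l *ᵥ _) (LinearMap.toMatrix' l *ᵥ _)
  simp only [LinearMap.toMatrix'_mulVec]
  exact h3 x y

theorem rel_t1 (c d : F) (x : Fin 8 → F) : Rel x ![x 0, x 1 + c * x 2 + d * x 3, x 2, x 3, x 4,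
    x 5 - c * x 4, x 6 - d * x 4, x 7] := by
  refine rel_of (fun x => ![x 0, x 1 + c * x 2 + d * x 3, x 2, x 3, x 4,
    x 5 - c * x 4, x 6 - d * x 4, x 7]) (fun x y => ?_) (fun e x => ?_) (fun x y => ?_)
    (fun x => ?_) x
  · ext i; fin_cases i <;> simp <;> ring
  · ext i; fin_cases i <;> simp <;> ring
  · ext i; fin_cases i <;> simp [zm_eq] <;> ring
  · simp [nm_apply]; ring

theorem rel_t2 (c d : F) (x : Fin 8 → F) : Rel x ![x 0, x 1, x 2 + c * x 1, x 3 + d * x 1,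
    x 4 - c * x 5 - d * x 6, x 5, x 6, x 7] := by
  refine rel_of (fun x => ![x 0, x 1, x 2 + c * x 1, x 3 + d * x 1,
    x 4 - c * x 5 - d * x 6, x 5, x 6, x 7]) (fun x y => ?_) (fun e x => ?_) (fun x y => ?_)
    (fun x => ?_) x
  · ext i; fin_cases i <;> simp <;> ring
  · ext i; fin_cases i <;> simp <;> ring
  · ext i; fin_cases i <;> simp [zm_eq] <;> ring
  · simp [nm_apply]; ring

theorem rel_d1 (p q r : F) (x : Fin 8 → F) : Rel x ![x 0 - (p * x 4 + q * x 5 + r * x 6),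
    (x 0 - x 7 - (p * x 4 + q * x 5 + r * x 6)) * p + x 1,
    (x 0 - x 7 - (p * x 4 + q * x 5 + r * x 6)) * q + x 2,
    (x 0 - x 7 - (p * x 4 + q * x 5 + r * x 6)) * r + x 3,
    x 4 - (x 2 * r - x 3 * q), x 5 - (x 3 * p - x 1 * r), x 6 - (x 1 * q - x 2 * p),
    x 7 + (p * x 4 + q * x 5 + r * x 6)] := by
  refine rel_of (fun x => ![x 0 - (p * x 4 + q * x 5 + r * x 6),
    (x 0 - x 7 - (p * x 4 + q * x 5 + r * x 6)) * p + x 1,
    (x 0 - x 7 - (p * x 4 + q * x 5 + r * x 6)) * q + x 2,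
    (x 0 - x 7 - (p * x 4 + q * x 5 + r * x 6)) * r + x 3,
    x 4 - (x 2 * r - x 3 * q), x 5 - (x 3 * p - x 1 * r), x 6 - (x 1 * q - x 2 * p),
    x 7 + (p * x 4 + q * x 5 + r * x 6)]) (fun x y => ?_) (fun e x => ?_) (fun x y => ?_)
    (fun x => ?_) x
  · ext i; fin_cases i <;> simp <;> ring
  · ext i; fin_cases i <;> simp <;> ring
  · ext i; fin_cases i <;> simp [zm_eq] <;> ring
  · simp [nm_apply]; ring

theorem rel_d2 (p q r : F) (x : Fin 8 → F) : Rel x ![x 0 + (x 1 * p + x 2 * q + x 3 * r),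
    x 1 + (x 5 * r - x 6 * q), x 2 + (x 6 * p - x 4 * r), x 3 + (x 4 * q - x 5 * p),
    (x 7 - x 0 - (x 1 * p + x 2 * q + x 3 * r)) * p + x 4,
    (x 7 - x 0 - (x 1 * p + x 2 * q + x 3 * r)) * q + x 5,
    (x 7 - x 0 - (x 1 * p + x 2 * q + x 3 * r)) * r + x 6,
    x 7 - (x 1 * p + x 2 * q + x 3 * r)] := by
  refine rel_of (fun x => ![x 0 + (x 1 * p + x 2 * q + x 3 * r),
    x 1 + (x 5 * r - x 6 * q), x 2 + (x 6 * p - x 4 * r), x 3 + (x 4 * q - x 5 * p),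
    (x 7 - x 0 - (x 1 * p + x 2 * q + x 3 * r)) * p + x 4,
    (x 7 - x 0 - (x 1 * p + x 2 * q + x 3 * r)) * q + x 5,
    (x 7 - x 0 - (x 1 * p + x 2 * q + x 3 * r)) * r + x 6,
    x 7 - (x 1 * p + x 2 * q + x 3 * r)]) (fun x y => ?_) (fun e x => ?_) (fun x y => ?_)
    (fun x => ?_) x
  · ext i; fin_cases i <;> simp <;> ring
  · ext i; fin_cases i <;> simp <;> ring
  · ext i; fin_cases i <;> simp [zm_eq] <;> ring
  · simp [nm_apply]; ring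

theorem Rel.nm {x y : Fin 8 → F} (h : Rel x y) : nm F y = nm F x := by
  obtain ⟨g, rfl⟩ := h; exact map_nm g.2 x

theorem polar_e1 (x : Fin 8 → F) : polar (nm F) x (e1 F) = x 0 + x 7 := by
  simp [polar_nm, e1]

theorem Rel.tr {x y : Fin 8 → F} (h : Rel x y) : y 0 + y 7 = x 0 + x 7 := by
  obtain ⟨g, rfl⟩ := h
  rw [← polar_e1, ← polar_e1, ← map_polar g.2 x, fix_e1 g.2]

theorem rel_step4 {x : Fin 8 → F} (h0 : x 0 = 0) (h7 : x 7 = 1) (h1 : x 1 = 1) (h2 : x 2 = 0)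
    (h3 : x 3 = 0) : Rel x ![0, 1, 0, 0, x 4, 0, 0, 1] := by
  have h := (rel_d2 0 (-x 5) (-x 6) x).trans (rel_t2 (-(x 4 * x 6)) (x 4 * x 5) _)
  convert h using 1
  ext i; fin_cases i <;> simp [h0, h7, h1, h2, h3] <;> ring

theorem rel_step3 {x : Fin 8 → F} (h : x 1 ≠ 0 ∨ x 2 ≠ 0 ∨ x 3 ≠ 0) :
    ∃ y, Rel x y ∧ y 0 = x 0 ∧ y 1 = 1 ∧ y 2 = 0 ∧ y 3 = 0 := by
  have a : ∀ x : Fin 8 → F, x 1 = 1 → ∃ y, Rel x y ∧ y 0 = x 0 ∧ y 1 = 1 ∧ y 2 = 0 ∧ y 3 = 0 :=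
    fun x h => ⟨_, rel_t2 (-x 2) (-x 3) x, by simp [h]⟩
  have b : ∀ x : Fin 8 → F, x 2 ≠ 0 ∨ x 3 ≠ 0 →
      ∃ y, Rel x y ∧ y 0 = x 0 ∧ y 1 = 1 ∧ y 2 = 0 ∧ y 3 = 0 := by
    rintro x (h | h)
    · obtain ⟨y, h1, h2⟩ := a _ (show ![x 0, x 1 + ((1 - x 1) / x 2) * x 2 + 0 * x 3, x 2, x 3, x 4,
        x 5 - ((1 - x 1) / x 2) * x 4, x 6 - 0 * x 4, x 7] 1 = 1 by simp [h])
      exact ⟨y, (rel_t1 _ _ x).trans h1, h2⟩
    · obtain ⟨y, h1, h2⟩ := a _ (show ![x 0, x 1 + 0 * x 2 + ((1 - x 1) / x 3) * x 3, x 2, x 3, x 4,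
        x 5 - 0 * x 4, x 6 - ((1 - x 1) / x 3) * x 4, x 7] 1 = 1 by simp [h])
      exact ⟨y, (rel_t1 _ _ x).trans h1, h2⟩
  by_cases h2 : x 2 = 0
  · rcases h with h | h
    · obtain ⟨y, h3, h4⟩ := b _ (Or.inl (show ![x 0, x 1, x 2 + 1 * x 1, x 3 + 0 * x 1,
        x 4 - 1 * x 5 - 0 * x 6, x 5, x 6, x 7] 2 ≠ 0 by simp [h, h2]))
      exact ⟨y, (rel_t2 _ _ x).trans h3, h4⟩
    · exact b x h
  · exact b x (Or.inl h2)

theorem rel_step1 {x : Fin 8 → F} (h : x 0 ≠ x 7) :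
    ∃ y, Rel x y ∧ (y 1 ≠ 0 ∨ y 2 ≠ 0 ∨ y 3 ≠ 0) := by
  by_cases h1 : x 1 ≠ 0 ∨ x 2 ≠ 0 ∨ x 3 ≠ 0
  · exact ⟨x, Rel.refl x, h1⟩
  push Not at h1
  have h2 := sub_ne_zero.2 h
  by_cases h4 : x 4 = 0
  · exact ⟨_, rel_d1 1 0 0 x, by simp [h1, h2, h4]⟩
  · refine ⟨_, rel_d1 (x 5) (-x 4) 0 x, Or.inr (Or.inl ?_)⟩
    simp [h1, h4, mul_comm (x 5), h2]

theorem rel_can {x : Fin 8 → F} (h : x 0 ≠ x 7) (ht : x 0 + x 7 = 1) :
    Rel x ![0, 1, 0, 0, -nm F x, 0, 0, 1] := by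
  obtain ⟨y, r1, hy⟩ := rel_step1 h
  obtain ⟨z, r2, -, z1, z2, z3⟩ := rel_step3 hy
  obtain ⟨u, r3, u0, hu⟩ : ∃ u, Rel z u ∧ u 0 = 0 ∧ (u 1 ≠ 0 ∨ u 2 ≠ 0 ∨ u 3 ≠ 0) :=
    ⟨_, rel_d2 (-z 0) 0 0 z, by simp [z1], by simp [z1]⟩
  obtain ⟨v, r4, v0, v1, v2, v3⟩ := rel_step3 hu
  have r := ((r1.trans r2).trans r3).trans r4
  rw [u0] at v0
  have v7 : v 7 = 1 := by rw [← ht, ← r.tr, v0, zero_add]
  have := r.trans (rel_step4 v0 v7 v1 v2 v3)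
  rwa [← r.nm, nm_apply, v0, v1, v2, v3, show -(0 * v 7 - 1 * v 4 - 0 * v 5 - 0 * v 6) = v 4 by ring]

variable [CharP F 2]

theorem rel_of_eq {x y : Fin 8 → F} (hx : x 0 + x 7 = 1) (hy : y 0 + y 7 = 1)
    (h : nm F x = nm F y) : Rel x y := by
  have key : ∀ x : Fin 8 → F, x 0 + x 7 = 1 → x 0 ≠ x 7 := fun x hx h => by
    rw [h, CharTwo.add_self_eq_zero] at hx; exact zero_ne_one hx
  exact (rel_can (key x hx) hx).trans (h ▸ (rel_can (key y hy) hy).symm)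

variable [Finite F]

instance : Finite (G2 F) := inferInstanceAs (Finite (G2 F : Subgroup (GL (Fin 8) F)))

/-- the stabiliser of the subalgebra generated by `x` -/
def ast (x : Fin 8 → F) : Subgroup (G2 F) :=
  toSub { carrier := {g | ∃ c : F, g.1.val *ᵥ x = x + c • e1 F}
          mul_mem' := by
            rintro a b ⟨c, hc⟩ ⟨d, hd⟩
            refine ⟨c + d, ?_⟩
            change (a.1.val * b.1.val) *ᵥ x = _
            rw [← mulVec_mulVec, hd, mulVec_add, mulVec_smul, hc, fix_e1 a.2, add_smul, add_assoc]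
          one_mem' := ⟨0, by simp⟩ }

theorem nm_shift (x : Fin 8 → F) (c : F) :
    nm F (x + c • e1 F) = nm F x + c * (x 0 + x 7) + c ^ 2 := by
  simp only [nm_apply, Pi.add_apply, Pi.smul_apply]
  simp [e1]; ring

theorem good_ast (P : F → Prop) (hP : ∀ a b, P a → P b → ∃ x, a + b = x ^ 2 + x) :
    Good ⊥ {H | ∃ x : Fin 8 → F, x 0 + x 7 = 1 ∧ P (nm F x) ∧ H = ast x} where
  ne := by
    rintro _ ⟨x, hx, -, rfl⟩ htop
    obtain ⟨g, hg⟩ := rel_of_eq (y := ![0, 1, 0, 0, -nm F x, 0, 0, 1]) hx (by simp)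
      (by simp [nm_apply (![0, 1, 0, 0, -nm F x, 0, 0, 1])])
    obtain ⟨g', hg'⟩ := rel_of_eq (y := ![0, 0, 1, 0, 0, -nm F x, 0, 1]) hx (by simp)
      (by simp [nm_apply (![0, 0, 1, 0, 0, -nm F x, 0, 1])])
    obtain ⟨c, hc⟩ : g ∈ ast x := htop ▸ Subgroup.mem_top g
    obtain ⟨c', hc'⟩ : g' ∈ ast x := htop ▸ Subgroup.mem_top g'
    have h1 := congrFun (hg.symm.trans hc) 1
    have h2 := congrFun (hg'.symm.trans hc') 1
    simp [e1] at h1 h2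
    exact zero_ne_one (h2.trans h1.symm)
  le := fun _ _ => bot_le
  conj := by
    rintro _ ⟨x, hx, px, rfl⟩ _ ⟨y, hy, py, rfl⟩
    obtain ⟨c, hc⟩ := hP _ _ px py
    obtain ⟨a, ha⟩ := rel_of_eq (x := x + c • e1 F) (y := y)
      (by simp [e1]; linear_combination hx + c * CharTwo.two_eq_zero (R := F)) hy
      (by rw [nm_shift, hx]; linear_combination hc + (c ^ 2 + c - nm F y) * CharTwo.two_eq_zero (R := F))
    refine ⟨a, ?_⟩
    rintro g ⟨d, hd⟩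
    refine ⟨d, ?_⟩
    change (a.1.val * g.1.val * (a.1⁻¹).val) *ᵥ y = _
    rw [← mulVec_mulVec, ← mulVec_mulVec, ← ha, gl_inv_mulVec, mulVec_add g.1.val, hd, mulVec_smul,
      fix_e1 g.2, add_right_comm, mulVec_add, mulVec_smul, fix_e1 a.2]

theorem exists_ast (g : G2 F) : ∃ x : Fin 8 → F, x 0 + x 7 = 1 ∧ g ∈ ast x := by
  by_cases h : e1 F ∈ LinearMap.range (Matrix.toLin' g.1.val - 1)
  · obtain ⟨y, hy⟩ := h
    have h1 : g.1.val *ᵥ y = y + (1 : F) • e1 F := by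
      rw [one_smul, ← hy]; simp
    refine ⟨y, ?_, 1, h1⟩
    have h2 := map_nm g.2 y
    rw [h1, nm_shift] at h2
    linear_combination h2 - CharTwo.two_eq_zero (R := F)
  · obtain ⟨f, hf, hfH⟩ := Submodule.exists_dual_map_eq_bot_of_notMem h inferInstance
    obtain ⟨w, hw⟩ := H28.exists_repr_dual (σ := RingHom.id F) (fun _ => rfl) (nm F).polarBilin
      nondeg_nm ((f (e1 F))⁻¹ • f)
    refine ⟨w, ?_, 0, ?_⟩
    · rw [← polar_e1]; exact (hw _).trans (by simp [hf])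
    · rw [zero_smul, add_zero, ← sub_eq_zero]
      refine nondeg_nm _ fun y => ?_
      rw [← gl_mulVec_inv g.1 y, polar_sub_left, map_polar g.2, ← neg_eq_zero, neg_sub,
        ← polar_sub_right]
      refine (hw _).trans ?_
      have : f (g.1.val *ᵥ ((g.1⁻¹).val *ᵥ y) - (g.1⁻¹).val *ᵥ y) ∈
        (LinearMap.range (Matrix.toLin' g.1.val - 1)).map f := ⟨_, ⟨_, rfl⟩, rfl⟩
      rw [hfH, Submodule.mem_bot] at this
      rw [LinearMap.smul_apply, this, smul_zero]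

theorem cov_g2 : Cov (G2 F) := by
  refine cov_of (good_ast (fun a => ∃ x, a = x ^ 2 + x) ?_)
    (good_ast (fun a => ¬ ∃ x, a = x ^ 2 + x) fun a b => wp_add) fun g => ?_
  · rintro _ _ ⟨x, rfl⟩ ⟨y, rfl⟩
    exact ⟨x + y, by rw [CharTwo.add_sq]; ring⟩
  · obtain ⟨w, h0, hw⟩ := exists_ast g
    by_cases h1 : ∃ x, nm F w = x ^ 2 + x
    · exact Or.inl ⟨_, ⟨w, h0, h1, rfl⟩, hw⟩
    · exact Or.inr ⟨_, ⟨w, h0, h1, rfl⟩, hw⟩

end H82.Cov2
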