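import Mathlib
import Cfsg.Agent.Lib.Cov2.Sp6B

/-!
`Sp₆(3^a)`: elements fixing no hyperbolic plane normalise a cubic field structure.
-/

set_option autoImplicit false
set_option linter.unusedSectionVars false
set_option linter.unusedSimpArgs false

namespace H82.Cov2

open Polynomial Module

variable {F V G : Type*} [Field F] [AddCommGroup V] [Module F V] [Group G]
variable {B : LinearMap.BilinForm F V} {ρ : G →* Module.End F V} {Z : Subgroup G}

theorem exists_last {n : End F V} (hn : IsNilpotent n) {j : ℕ} (hj : n ^ j ≠ 0) :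
    ∃ x, (n ^ j) x ≠ 0 ∧ (n ^ (j + 1)) x = 0 := by
  obtain ⟨k, hk⟩ := hn
  by_contra h
  push Not at h
  apply hj
  ext x
  by_contra hx
  have : ∀ i, (n ^ (j + i)) x ≠ 0 := by
    intro i
    induction i with
    | zero => exact hx
    | succ i ih =>
      have := h ((n ^ i) x) (by rwa [← End.mul_apply, ← pow_add])
      rwa [← End.mul_apply, ← pow_add, add_right_comm] at this
  apply this k
  rw [pow_add, hk, mul_zero, LinearMap.zero_apply]

theorem exists_irred_not_inj [Nontrivial V] (z : End F V) {χ : F[X]} (h0 : χ ≠ 0)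
    (hχ : aeval z χ = 0) :
    ∃ π : F[X], Irreducible π ∧ π ∣ χ ∧ ¬ Function.Injective (aeval z π) := by
  by_contra h
  push Not at h
  have : Function.Injective (aeval z χ) := by
    clear hχ
    induction χ using WfDvdMonoid.induction_on_irreducible with
    | zero => exact absurd rfl h0
    | unit u hu => exact ((End.isUnit_iff _).1 (hu.map (aeval z))).1
    | mul χ π hχ hπ ih =>
      rw [map_mul]
      exact (h π hπ (dvd_mul_right _ _)).comp (ih hχ fun r hr hd => h r hr (hd.mul_left _))
  obtain ⟨x, hx⟩ := exists_ne (0 : V)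
  exact hx (this (by rw [hχ]; simp))

theorem nd_span {ι : Type*} [Fintype ι] (u : ι → V)
    (h : ∀ c : ι → F, (∀ j, ∑ i, c i * B (u i) (u j) = 0) → ∀ i, c i = 0) :
    ND B (Submodule.span F (Set.range u)) := by
  intro x hx h1
  obtain ⟨c, rfl⟩ := (Submodule.mem_span_range_iff_exists_fun F).1 hx
  have := h c fun j => by
    simpa [map_sum, LinearMap.sum_apply] using h1 (u j) (Submodule.subset_span ⟨j, rfl⟩)
  simp [this]

/-- an orthogonally indecomposable isometry -/
structure Ctx (B : LinearMap.BilinForm F V) (T T' : End F V) : Prop where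
  l : T' * T = 1
  r : T * T' = 1
  iso : ∀ x y, B (T x) (T y) = B x y
  ind : ∀ W : Submodule F V, (∀ v ∈ W, T v ∈ W) → ND B W → W = ⊥ ∨ W = ⊤

variable [FiniteDimensional F V] [CharP F 3] [Finite G] [Finite F] {T T' : End F V}

theorem Ctx.l' (c : Ctx B T T') (v : V) : T' (T v) = v := LinearMap.congr_fun c.l v
theorem Ctx.r' (c : Ctx B T T') (v : V) : T (T' v) = v := LinearMap.congr_fun c.r v
theorem Ctx.adj (c : Ctx B T T') (x y : V) : B (T x) y = B x (T' y) := by rw [← c.iso x, c.r']
theorem Ctx.adj' (c : Ctx B T T') (x y : V) : B (T' x) y = B x (T y) := by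
  rw [← c.iso (T' x), c.r']

theorem Ctx.fitting (h : SpData B ρ Z) (c : Ctx B T T') {s : End F V} (hs : SA B s)
    (hc : s * T = T * s) : IsNilpotent s ∨ Function.Injective s := by
  obtain ⟨k, hk⟩ := (s.eventually_isCompl_ker_pow_range_pow.and
    (Filter.eventually_ge_atTop 1)).exists
  have hc' : s ^ k * T = T * s ^ k := (Commute.pow_left hc k).eq
  rcases c.ind (LinearMap.range (s ^ k)) (by
      rintro _ ⟨v, rfl⟩
      exact ⟨T v, LinearMap.congr_fun hc' v⟩) (by
      rintro _ ⟨v, rfl⟩ hx
      refine h.nd _ fun y => ?_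
      obtain ⟨a, ha, b, hb, rfl⟩ := Submodule.mem_sup.1 (hk.1.sup_eq_top ▸ Submodule.mem_top (x := y))
      rw [map_add, hx b hb, hs.pow k, LinearMap.mem_ker.1 ha, map_zero, add_zero]) with h1 | h1
  · exact Or.inl ⟨k, LinearMap.range_eq_bot.1 h1⟩
  · right
    have h2 := LinearMap.injective_iff_surjective.2 (LinearMap.range_eq_top.1 h1)
    obtain ⟨j, rfl⟩ : ∃ j, k = j + 1 := ⟨k - 1, by omega⟩
    rw [pow_succ] at h2
    exact Function.Injective.of_comp h2

theorem Ctx.small (c : Ctx B T T') (h6 : finrank F V = 6) {ι : Type*} [Fintype ι] [Nonempty ι]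
    (hι : Fintype.card ι < 6) (u : ι → V)
    (h : ∀ c : ι → F, (∀ j, ∑ i, c i * B (u i) (u j) = 0) → ∀ i, c i = 0)
    (hT : ∀ i, T (u i) ∈ Submodule.span F (Set.range u)) : False := by
  have h1 := finrank_span_eq_card (indep_of_gram B u h)
  have : Submodule.span F (Set.range u) ≤ (Submodule.span F (Set.range u)).comap T :=
    Submodule.span_le.2 (by rintro _ ⟨i, rfl⟩; exact hT i)
  have h2 := Fintype.card_pos (α := ι)
  rcases c.ind _ this (nd_span u h) with h3 | h3
  · rw [h3, finrank_bot] at h1; omega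
  · rw [h3, finrank_top] at h1; omega

theorem Ctx.exists_x (h : SpData B ρ Z) (c : Ctx B T T') {s : End F V} (hs : SA B s)
    (hc : s * T = T * s) (hw : s * (T - T') ≠ 0) : ∃ x, B (s x) (T x) ≠ 0 := by
  by_contra h1
  push Not at h1
  apply hw
  ext x
  refine h.nd _ fun y => ?_
  have h2 := h1 (x + y)
  simp only [map_add, LinearMap.add_apply, h1] at h2
  rw [End.mul_apply, hs, LinearMap.sub_apply, map_sub, LinearMap.sub_apply, c.adj', h.swap (T x),
    ← End.mul_apply T, ← hc, End.mul_apply, ← hs]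
  linear_combination -h2

theorem SA.pp (h : SpData B ρ Z) {s : End F V} (hs : SA B s) (x : V) (i j : ℕ) :
    B ((s ^ i) x) ((s ^ j) x) = 0 := by
  rw [← hs.pow j, ← End.mul_apply, ← pow_add, (hs.pow _).self h]

theorem cube_zero (h : SpData B ρ Z) (h6 : finrank F V = 6) {n : End F V} (hs : SA B n)
    (hn : IsNilpotent n) : n ^ 3 = 0 := by
  by_contra h3
  obtain ⟨x, h1, h2⟩ := exists_last hn h3
  have hi : LinearIndependent F fun i : Fin 4 => (n ^ (i : ℕ)) x := by
    rw [Fintype.linearIndependent_iff]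
    intro c hc
    simp [Fin.sum_univ_four, pow_succ] at hc h1 h2
    have e0 := congrArg (fun v => n (n (n v))) hc
    simp [h1, h2] at e0
    have e1 := congrArg (fun v => n (n v)) hc
    simp [h1, h2, e0] at e1
    have e2 := congrArg (fun v => n v) hc
    simp [h1, h2, e0, e1] at e2
    simp [h1, e0, e1, e2] at hc
    intro i; fin_cases i <;> simp [e0, e1, e2, hc]
  have := h.two_mul_le hi fun i j => hs.pp h x i j
  simp at this; omega

theorem not_quad (h : SpData B ρ Z) (h6 : finrank F V = 6) {w : End F V} (hs : SA B w) {ν : F}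
    (hν : ¬ IsSquare ν) (hw : ∀ v, w (w v) = ν • v) : False := by
  have key : ∀ (X : Submodule F V), (∀ v ∈ X, w v ∈ X) → ∀ x ∉ X, ∀ c d : F, c • x + d • w x ∈ X →
      c = 0 ∧ d = 0 := by
    intro X hX x hx c d h1
    have h2 := X.sub_mem (X.smul_mem c h1) (X.smul_mem d (hX _ h1))
    have h3 : c • (c • x + d • w x) - d • w (c • x + d • w x) = (c * c - d * d * ν) • x := by
      simp only [map_add, map_smul, hw]; module
    rw [h3] at h2
    have h4 : c * c - d * d * ν = 0 := by
      by_contra h4; exact hx ((X.smul_mem_iff h4).1 h2)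
    have h5 : d = 0 := by
      by_contra h5
      exact hν ⟨c / d, by field_simp; linear_combination -h4⟩
    rw [h5] at h4
    exact ⟨by simpa using h4, h5⟩
  obtain ⟨x, hx⟩ : ∃ x : V, x ≠ 0 := by
    have : Nontrivial V := Module.nontrivial_of_finrank_pos (R := F) (by omega)
    exact exists_ne 0
  let X := Submodule.span F (Set.range ![x, w x])
  have x0 : x ∈ X := Submodule.subset_span ⟨0, rfl⟩
  have x1 : w x ∈ X := Submodule.subset_span ⟨1, rfl⟩
  have hX : X ≤ X.comap w := Submodule.span_le.2 (by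
    rintro _ ⟨i, rfl⟩
    fin_cases i
    · exact x1
    · change w (w x) ∈ X; rw [hw]; exact X.smul_mem _ x0)
  have h1 : finrank F X ≤ 2 := (finrank_range_le_card _).trans (by simp)
  have h2 := LinearMap.BilinForm.finrank_orthogonal h.nondeg X
  obtain ⟨y, hy, hyX⟩ : ∃ y ∈ B.orthogonal X, y ∉ X := by
    by_contra h3
    push Not at h3
    have := Submodule.finrank_mono (h3 : B.orthogonal X ≤ X)
    omega
  have hi : LinearIndependent F ![x, w x, y, w y] := by
    rw [Fintype.linearIndependent_iff]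
    intro c hc
    simp [Fin.sum_univ_four] at hc
    obtain ⟨e2, e3⟩ := key X hX y hyX (c 2) (c 3) (by
      have : c 2 • y + c 3 • w y = -(c 0 • x + c 1 • w x) := by
        linear_combination (norm := module) hc
      rw [this]; exact X.neg_mem (X.add_mem (X.smul_mem _ x0) (X.smul_mem _ x1)))
    obtain ⟨e0, e1⟩ := key ⊥ (by simp) x hx (c 0) (c 1) (by simpa [e2, e3] using hc)
    intro i; fin_cases i <;> simp [e0, e1, e2, e3]
  have y0 : B x y = 0 := hy x x0
  have y1 : B x (w y) = 0 := by rw [← hs]; exact hy _ x1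
  have z0 : B y x = 0 := h.refl _ _ y0
  have z1 : B y (w x) = 0 := by rw [← hs]; exact h.refl _ _ y1
  have s1 : ∀ v, B v (w v) = 0 := fun v => by rw [← hs, hs.self h]
  have hs' : ∀ u v, B (w u) v = B u (w v) := hs
  have := h.two_mul_le hi fun i j => by
    fin_cases i <;> fin_cases j <;> simp [hs', hw, h.alt, s1, y0, y1, z0, z1]
  simp at this; omega

theorem Ctx.sa (c : Ctx B T T') (t : F) : SA B (T + T' - t • 1) := fun x y => by
  simp only [LinearMap.add_apply, LinearMap.sub_apply, LinearMap.smul_apply, End.one_apply,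
    map_add, map_sub, map_smul, c.adj, c.adj', smul_eq_mul]
  ring

theorem Ctx.tri (h : SpData B ρ Z) (h6 : finrank F V = 6) (c : Ctx B T T') {t : F} {n : End F V}
    (hn : n = T + T' - t • 1) (h3 : n * (n * n) = 0) : ∃ x y, Tri B T x y := by
  have t3 : (3 : F) = 0 := CharP.cast_eq_zero F 3
  have hs : SA B n := hn ▸ c.sa t
  have hs' : ∀ u v, B (n u) v = B u (n v) := hs
  have i1 : ∀ u, T * (T' * u) = u := fun u => by rw [← mul_assoc, c.r, one_mul]
  have i2 : ∀ u, T' * (T * u) = u := fun u => by rw [← mul_assoc, c.l, one_mul]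
  have nT : n * T = T * n := by
    simp only [hn, mul_add, add_mul, mul_sub, sub_mul, c.l, c.r, smul_mul_assoc, mul_smul_comm,
      one_mul, mul_one]
  have nT' : ∀ v, T (n v) = n (T v) := fun v => (LinearMap.congr_fun nT v).symm
  have n3 : ∀ v, n (n (n v)) = 0 := fun v => LinearMap.congr_fun h3 v
  have TT : ∀ v, T (T v) = t • T v + n (T v) - v := fun v => by
    simp [hn, c.l']
  have cube : T * (T * T) + T' * (T' * T') = t ^ 3 • 1 := by
    simp only [hn, mul_add, add_mul, mul_sub, sub_mul, c.l, c.r, smul_mul_assoc, mul_smul_comm,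
      one_mul, mul_one, i1, i2] at h3
    linear_combination (norm := module) h3 + t3 • (t • (T * T) + t • (T' * T') - T - T' +
      (2 * t) • 1 - (t * t) • T - (t * t) • T')
  obtain ⟨w, hw⟩ : ∃ w, w = T - T' := ⟨_, rfl⟩
  have ww : w * w = n * n + (2 * t) • n + (t * t - 4) • 1 := by
    simp only [hw, hn, mul_add, add_mul, mul_sub, sub_mul, c.l, c.r, smul_mul_assoc, mul_smul_comm,
      one_mul, mul_one]
    module
  have wn : w * n = n * w := by
    simp only [hw, hn, mul_add, add_mul, mul_sub, sub_mul, c.l, c.r, smul_mul_assoc, mul_smul_comm,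
      one_mul, mul_one]
    module
  have ww' : ∀ v, w (w v) = n (n v) + (2 * t) • n v + (t * t - 4) • v :=
    fun v => LinearMap.congr_fun ww v
  have wn' : ∀ v, w (n v) = n (w v) := fun v => LinearMap.congr_fun wn v
  by_cases hA : n * n * w = 0
  swap
  · obtain ⟨x0, hx0⟩ := c.exists_x h (s := n * n) (fun x y => by simp [hs'])
      (by rw [mul_assoc, nT, ← mul_assoc, nT, mul_assoc]) (hw ▸ hA)
    obtain ⟨x, e0, e1, e2⟩ : ∃ x, B x (T x) = 0 ∧ B x (n (T x)) = 0 ∧ B x (n (n (T x))) ≠ 0 := by
      rw [End.mul_apply, hs', hs'] at hx0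
      obtain ⟨c1, h1⟩ : ∃ c1, B x0 (n (T x0)) = c1 * B x0 (n (n (T x0))) :=
        ⟨_, (div_mul_cancel₀ _ hx0).symm⟩
      obtain ⟨c0, h0⟩ : ∃ c0, B x0 (T x0) = c0 * B x0 (n (n (T x0))) :=
        ⟨_, (div_mul_cancel₀ _ hx0).symm⟩
      refine ⟨x0 + c1 • n x0 + c0 • n (n x0), ?_, ?_, ?_⟩
      · simp [nT', hs', n3, h0, h1]
        linear_combination (c0 + c1 ^ 2) * B x0 (n (n (T x0))) * t3
      · simp [nT', hs', n3, h1]
        linear_combination c1 * B x0 (n (n (T x0))) * t3
      · simpa [nT', hs', n3] using hx0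
    have s1 : ∀ v, B v (n v) = 0 := fun v => by rw [← hs, hs.self h]
    have b2 : B x (T (T x)) = 0 := by simp [TT x, e0, e1, h.alt]
    have b3 : B x (T (T (T x))) ≠ 0 := by
      rw [TT (T x), TT x]
      simpa [e0, e1, h.alt, s1] using e2
    have c4 : ∀ v, T (T (T v)) = t ^ 3 • v - T' (T' (T' v)) := fun v =>
      eq_sub_of_add_eq (LinearMap.congr_fun cube v)
    refine ⟨x, T (T (T x)), e0, b2, by simp [c.iso, e0], by simp [c.iso, b2], ?_, ?_, ?_, ?_, b3,
      ⟨0, 1, by simp⟩, ⟨-1, t ^ 3, ?_⟩⟩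
    · rw [c4 (T x)]; simp [e0, c.l', ← c.adj, h.refl _ _ b2]
    · rw [c4 (T (T x))]; simp [b2, c.l', ← c.adj, h.refl _ _ e0]
    · rw [c.iso]; exact h.refl _ _ b2
    · rw [c.iso, c.iso]; exact h.refl _ _ e0
    · rw [c4 (T (T (T x)))]; simp only [c.l']; module
  have hA' : ∀ v, n (n (w v)) = 0 := fun v => LinearMap.congr_fun hA v
  by_cases hB : n * n = 0
  swap
  · exfalso
    obtain ⟨x, y, hxy⟩ : ∃ x y, B x (n (n y)) ≠ 0 := by
      by_contra h1; push Not at h1
      exact hB (LinearMap.ext fun y => h.nd _ fun x => h.refl _ _ (h1 x y))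
    have ht : t * t - 4 = 0 := by
      have := hA' (w y)
      simp only [ww', map_add, map_smul, n3, map_zero, smul_zero, zero_add] at this
      exact (smul_eq_zero.1 this).resolve_right fun h1 => hxy (by simp [h1])
    have ht0 : t ≠ 0 := by
      rintro rfl; exact one_ne_zero (α := F) (by linear_combination -ht - t3)
    have two : (2 : F) ≠ 0 := fun h2 => one_ne_zero (α := F) (by linear_combination t3 - h2)
    have s2 : ∀ v, B v (n (n v)) = 0 := fun v => by rw [← hs, h.alt]
    have hyx : B y (n (n x)) = -B x (n (n y)) := by rw [h.swap, hs, hs]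
    have key : ∀ a b : F, a • n (n x) + b • n (n y) = 0 → a = 0 ∧ b = 0 := by
      intro a b hab
      have e1 := congrArg (B x) hab
      have e2 := congrArg (B y) hab
      simp [s2, hxy, hyx] at e1 e2
      exact ⟨e2, e1⟩
    have hi : LinearIndependent F ![n (n x), n (n y), n (w x), n (w y)] := by
      rw [Fintype.linearIndependent_iff]
      intro c hc
      simp [Fin.sum_univ_four] at hc
      have e := congrArg w hc
      simp [wn', hA', ww', n3, ht, smul_smul] at e
      obtain ⟨e2, e3⟩ := key _ _ e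
      simp [ht0, two] at e2 e3
      simp [e2, e3] at hc
      obtain ⟨e0, e1⟩ := key _ _ hc
      intro i; fin_cases i <;> simp [e0, e1, e2, e3]
    have := h.two_mul_le hi fun i j => by
      fin_cases i <;> fin_cases j <;> simp [hs', n3, hA']
    simp at this; omega
  have hB' : ∀ v, n (n v) = 0 := fun v => LinearMap.congr_fun hB v
  have s1 : ∀ v, B v (n v) = 0 := fun v => by rw [← hs, hs.self h]
  by_cases hC : n * w = 0
  swap
  · exfalso
    obtain ⟨x, hx⟩ := c.exists_x h hs nT (hw ▸ hC)
    rw [hs] at hx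
    have e1 : B (T x) (n x) = -B x (n (T x)) := by rw [h.swap, hs]
    let u := ![x, T x, n x, n (T x)]
    have m0 : x ∈ Submodule.span F (Set.range u) := Submodule.subset_span ⟨0, rfl⟩
    have m1 : T x ∈ Submodule.span F (Set.range u) := Submodule.subset_span ⟨1, rfl⟩
    have m2 : n x ∈ Submodule.span F (Set.range u) := Submodule.subset_span ⟨2, rfl⟩
    have m3 : n (T x) ∈ Submodule.span F (Set.range u) := Submodule.subset_span ⟨3, rfl⟩
    refine c.small h6 (by simp) u (fun d hd => ?_) fun i => ?_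
    · have d0 := hd 0
      have d1 := hd 1
      have d2 := hd 2
      have d3 := hd 3
      simp [u, Fin.sum_univ_four, hs', hB', h.alt, s1, e1, hx] at d0 d1 d2 d3
      simp [d2, d3, hx] at d0 d1
      intro i; fin_cases i <;> simp [d0, d1, d2, d3]
    · fin_cases i
      · exact m1
      · change T (T x) ∈ _
        rw [TT]; exact sub_mem (add_mem (Submodule.smul_mem _ _ m1) m3) m0
      · change T (n x) ∈ _
        rw [nT']; exact m3
      · change T (n (T x)) ∈ _
        rw [nT', TT]; simp only [map_add, map_sub, map_smul, hB', add_zero]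
        exact sub_mem (Submodule.smul_mem _ _ m3) m2
  have hC' : ∀ v, n (w v) = 0 := fun v => LinearMap.congr_fun hC v
  by_cases hD : n = 0
  swap
  · obtain ⟨x, y, hxy⟩ : ∃ x y, B x (n y) ≠ 0 := by
      by_contra h1; push Not at h1
      exact hD (LinearMap.ext fun y => h.nd _ fun x => h.refl _ _ (h1 x y))
    have ht : t * t - 4 = 0 := by
      have := hC' (w y)
      simp only [ww', map_add, map_smul, hB', map_zero, smul_zero, zero_add] at this
      exact (smul_eq_zero.1 this).resolve_right fun h1 => hxy (by simp [h1])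
    have w3 : w * (w * w) = 0 := by
      rw [ww, hB, ht, zero_add, zero_smul, add_zero, mul_smul_comm, wn, hC, smul_zero]
    have T3 : T * (T * T) = (-t) • 1 := by
      simp only [hw, mul_add, add_mul, mul_sub, sub_mul, c.l, c.r, smul_mul_assoc, mul_smul_comm,
        one_mul, mul_one, i1, i2] at w3
      linear_combination (norm := module) -w3 - cube - ht • (t • (1 : End F V)) +
        t3 • (T * (T * T) - T + T' - t • 1)
    have T3' : ∀ v, T (T (T v)) = (-t) • v := fun v => LinearMap.congr_fun T3 v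
    have T2 : ∀ v, T (T v) = (-t) • T' v := fun v => by rw [← T3', c.r']
    have ny : n y = T y + T' y - t • y := by rw [hn]; rfl
    have h1 : (t + 1) * (t - 1) = 0 := by linear_combination ht + t3
    rcases mul_eq_zero.1 h1 with h2 | h2
    · obtain rfl : t = -1 := eq_neg_of_add_eq_zero_left h2
      refine tri_of_cube h c.iso (by simpa using T3') (x := x) (y := y) ?_
      convert hxy using 2
      rw [T2, ny]; module
    · obtain rfl : t = 1 := sub_eq_zero.1 h2
      obtain ⟨x, y, hxy⟩ := tri_of_cube (T := -T) h (by simpa using c.iso) (by simp [T3'])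
        (x := x) (y := -y) (by
          convert hxy using 2
          simp only [LinearMap.neg_apply, map_neg, neg_neg, T2, ny]; module)
      exact ⟨x, y, hxy.neg⟩
  exfalso
  by_cases hE : 1 * w = 0
  swap
  · obtain ⟨x, hx⟩ := c.exists_x h (s := 1) (fun _ _ => rfl) (by simp) (hw ▸ hE)
    rw [End.one_apply] at hx
    let u := ![x, T x]
    have m0 : x ∈ Submodule.span F (Set.range u) := Submodule.subset_span ⟨0, rfl⟩
    have m1 : T x ∈ Submodule.span F (Set.range u) := Submodule.subset_span ⟨1, rfl⟩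
    refine c.small h6 (by simp) u (fun d hd => ?_) fun i => ?_
    · have d0 := hd 0
      have d1 := hd 1
      simp [u, Fin.sum_univ_two, h.alt, h.swap (T x) x, hx] at d0 d1
      intro i; fin_cases i <;> simp [d0, d1]
    · fin_cases i
      · exact m1
      · change T (T x) ∈ _
        rw [TT, hD, LinearMap.zero_apply, add_zero]; exact sub_mem (Submodule.smul_mem _ _ m1) m0
  · obtain ⟨x, hx⟩ : ∃ x : V, x ≠ 0 := by
      have : Nontrivial V := Module.nontrivial_of_finrank_pos (R := F) (by omega)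
      exact exists_ne 0
    obtain ⟨y, hy⟩ := h.exists_ne hx
    have hT : ∀ v, T v = (-t) • v := fun v => by
      have e1 := LinearMap.congr_fun hE v
      have e2 := LinearMap.congr_fun (hn.symm.trans hD) v
      simp [hw] at e1 e2
      linear_combination (norm := module) -e1 - e2 + t3 • T v
    refine c.small h6 (by simp) ![x, y] (fun d hd => ?_) fun i => ?_
    · have d0 := hd 0
      have d1 := hd 1
      simp [Fin.sum_univ_two, h.alt, h.swap y x, hy] at d0 d1
      intro i; fin_cases i <;> simp [d0, d1]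
    · rw [hT]; exact Submodule.smul_mem _ _ (Submodule.subset_span ⟨i, rfl⟩)

theorem mem_cubics (h : SpData B ρ Z) (h6 : finrank F V = 6) {a : F} (ha : ∀ x : F, x ^ 3 - x ≠ a)
    {g : G} (hg : ¬ ∃ H ∈ planes B ρ, g ∈ H) : ∃ H ∈ cubics B ρ a, g ∈ H := by
  have c : Ctx B (ρ g) (ρ g⁻¹) := ⟨by rw [← map_mul, inv_mul_cancel, map_one],
    by rw [← map_mul, mul_inv_cancel, map_one], h.iso g, ind_of h h6 hg⟩
  have hs := h.sa_add g
  have hc : Commute (ρ g + ρ g⁻¹) (ρ g) := by
    change _ = _
    rw [add_mul, mul_add, c.l, c.r]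
  have hc' : ∀ p : F[X], aeval (ρ g + ρ g⁻¹) p * ρ g = ρ g * aeval (ρ g + ρ g⁻¹) p := fun p => by
    induction p using Polynomial.induction_on' with
    | add p q hp hq => simp only [map_add, add_mul, mul_add, hp, hq]
    | monomial n b =>
      rw [aeval_monomial, Algebra.algebraMap_eq_smul_one, smul_mul_assoc, one_mul, smul_mul_assoc,
        mul_smul_comm, (hc.pow_left n).eq]
  have : Nontrivial V := Module.nontrivial_of_finrank_pos (R := F) (by omega)
  obtain ⟨π, hπ, -, hinj⟩ := exists_irred_not_inj (ρ g + ρ g⁻¹)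
    (LinearMap.charpoly_monic _).ne_zero (LinearMap.aeval_self_charpoly _)
  obtain ⟨N, hN⟩ := (c.fitting h (hs.aeval π) (hc' π)).resolve_right hinj
  rw [← map_pow] at hN
  have hdeg : ∀ r, Irreducible r → r ∣ π ^ N → r.natDegree = π.natDegree := fun r hr hd =>
    natDegree_eq_of_degree_eq (degree_eq_degree_of_associated
      (hr.associated_of_dvd hπ (hr.prime.dvd_of_dvd_pow hd)))
  obtain ⟨x, hx, hx0⟩ : ∃ x, aeval (ρ g + ρ g⁻¹) π x = 0 ∧ x ≠ 0 := by
    by_contra h1; push Not at h1
    exact hinj ((injective_iff_map_eq_zero _).2 h1)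
  have h1 := h.two_mul_le (indep_pow hπ hx0 hx le_rfl) fun i j => hs.pp h x i j
  have h2 := hπ.natDegree_pos
  rw [Fintype.card_fin, h6] at h1
  have h0 := pow_ne_zero N hπ.ne_zero
  obtain h3 | h3 | h3 : π.natDegree = 1 ∨ π.natDegree = 2 ∨ π.natDegree = 3 := by omega
  · obtain ⟨t, ht⟩ := exists_root_of_degree_eq_one (p := π)
      (by rw [degree_eq_natDegree hπ.ne_zero, h3]; rfl)
    obtain ⟨r, hr⟩ := ((irreducible_X_sub_C t).associated_of_dvd hπ (dvd_iff_isRoot.2 ht)).symm.dvd
    have hnil : IsNilpotent (ρ g + ρ g⁻¹ - t • 1) := ⟨N, by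
      have : aeval (ρ g + ρ g⁻¹) ((X - C t) ^ N) = 0 := by rw [hr, mul_pow, map_mul, hN, zero_mul]
      simpa [Algebra.algebraMap_eq_smul_one] using this⟩
    have h4 := cube_zero h h6 (c.sa t) hnil
    rw [pow_three] at h4
    obtain ⟨x, y, hT⟩ := c.tri h h6 rfl h4
    obtain ⟨θ, e1, e2, e3⟩ := hT.grading h h6 c.iso
    refine mem_cubics_of_grading h a e1 e2 e3 (t := t ^ 3) ?_
    have t3 : (3 : F) = 0 := CharP.cast_eq_zero F 3
    generalize ρ g + ρ g⁻¹ = z at h4
    simp only [mul_sub, sub_mul, smul_mul_assoc, mul_smul_comm, one_mul, mul_one] at h4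
    linear_combination (norm := module) h4 + t3 • (t • (z * z) - (t * t) • z)
  · exfalso
    obtain ⟨ν, hν⟩ := FiniteField.exists_nonsquare (F := F) (by rw [ringChar.eq F 3]; norm_num)
    obtain ⟨p, hp⟩ := exists_root _ h0 hN (f := X ^ 2 - C ν)
      (X_pow_sub_C_irreducible_of_prime Nat.prime_two fun b hb => hν ⟨b, by rw [← hb, sq]⟩)
      fun r hr hd => by rw [hdeg r hr hd, h3, natDegree_X_pow_sub_C]
    refine not_quad h h6 (hs.aeval p) hν fun v => ?_
    have := LinearMap.congr_fun hp v
    simpa [pow_succ, Algebra.algebraMap_eq_smul_one, sub_eq_zero] using this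
  · obtain ⟨hf, hd⟩ := irred_as ha
    obtain ⟨p, hp⟩ := exists_root _ h0 hN hf fun r hr hd' => by rw [hdeg r hr hd', h3, hd]
    refine ⟨_, ⟨_, hs.aeval p, fun v => ?_, rfl⟩, 0, by rw [hc', zero_smul, add_zero]⟩
    have := LinearMap.congr_fun hp v
    simp [pow_succ, Algebra.algebraMap_eq_smul_one] at this
    linear_combination (norm := module) this

theorem cov_psp6 : Cov (Cfsg.PSp 3 F) := by
  obtain ⟨a, ha⟩ : ∃ a : F, ∀ x : F, x ^ 3 - x ≠ a := by
    by_contra h1; push Not at h1
    have := Finite.injective_iff_surjective.2 h1 (a₁ := 0) (a₂ := 1) (by simp)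
    exact zero_ne_one this
  have h6 : finrank F (Fin 3 ⊕ Fin 3 → F) = 6 := by simp
  refine cov_quot (good_planes (spData 3 F) (le_of_le_of_eq (by norm_num) h6.symm))
    (good_cubics (spData 3 F) h6 ha) fun g => ?_
  by_cases hg : ∃ H ∈ planes (H11.Sp.bilin 3 F) (spRep 3 F), g ∈ H
  · exact Or.inl hg
  · exact Or.inr (mem_cubics (spData 3 F) h6 ha hg)

end H82.Cov2
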