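import Mathlib
import Cfsg.Agent.Lib.Cov2.Sp6C
import Cfsg.Agent.Lib.Unitary.Simple

/-!
`SU₄(q)` is covered by the stabilisers of non-isotropic points and of totally isotropic lines.
-/

set_option autoImplicit false
set_option linter.unusedSectionVars false
set_option linter.unusedSimpArgs false

namespace H82.Cov2

open Polynomial Module Matrix Cfsg H11.U

variable {F : Type*} [Field F] [Fintype F] {q n : ℕ} [IsSq F q]

theorem odd_of_selfdual {π : F[X]} (hπ : Irreducible π) (hd : π ∣ (π.map (cj q)).reverse) :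
    Odd π.natDegree := by
  by_cases hX : π ∣ X
  · rw [natDegree_eq_of_degree_eq (degree_eq_degree_of_associated
      (hπ.associated_of_dvd irreducible_X hX)), natDegree_X]
    exact odd_one
  have := Fact.mk hπ
  have := H65.finiteDimensional_adjoinRoot hπ.ne_zero
  have : Finite (AdjoinRoot π) := Module.finite_of_finite F
  obtain ⟨p, k, hp, hc, hq, -⟩ := exists_char_pow F q
  have := Fact.mk hp
  have : CharP (AdjoinRoot π) p := charP_of_injective_algebraMap (algebraMap F _).injective p
  set l := AdjoinRoot.root π with hl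
  have hl0 : l ≠ 0 := fun h => hX (AdjoinRoot.mk_eq_zero.1 h)
  let τ := iterateFrobenius (AdjoinRoot π) p k
  have hτ : ∀ x, τ x = x ^ q := fun x => by rw [hq]; rfl
  have h1 : aeval l⁻¹ (π.map (cj q)) = 0 := by
    have h2 : aeval l (π.map (cj q)).reverse = 0 := by
      rw [AdjoinRoot.aeval_eq, AdjoinRoot.mk_eq_zero]; exact hd
    rw [H72.Cls.aeval_reverse (inv_mul_cancel₀ hl0)] at h2
    exact (mul_eq_zero.1 h2).resolve_right (pow_ne_zero _ hl0)
  have h2 : aeval (τ l⁻¹) π = 0 := by
    have h3 := map_aeval_eq_aeval_map (φ := cj q) (ψ := τ) (RingHom.ext fun x => by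
      simp [hτ, cj_apply]) (π.map (cj q)) l⁻¹
    rw [h1, map_zero, Polynomial.map_map, show (cj q).comp (cj q) = RingHom.id F from
      RingHom.ext cj_cj, Polynomial.map_id] at h3
    exact h3.symm
  let a := AdjoinRoot.liftAlgHom π (Algebra.ofId F _) (τ l⁻¹) h2
  have ha : a l = (l⁻¹) ^ q := (AdjoinRoot.liftAlgHom_root _ _ _ _).trans (hτ _)
  obtain ⟨j, hj⟩ := (FiniteField.bijective_frobeniusAlgHom_pow F (AdjoinRoot π)).2 a
  have h3 : a * a = FiniteField.frobeniusAlgHom F (AdjoinRoot π) := by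
    refine AdjoinRoot.algHom_ext ?_
    change a (a l) = l ^ Fintype.card F
    rw [ha, map_pow, map_inv₀, ha, inv_pow l, inv_inv, ← pow_mul, IsSq.card_eq (q := q), sq]
  have h4 := FiniteField.orderOf_frobeniusAlgHom F (AdjoinRoot π)
  rw [H65.finrank_adjoinRoot] at h4
  simp only at hj
  rw [← hj, ← pow_add] at h3
  have h5 := (IsOfFinOrder.pow_eq_pow_iff_modEq (orderOf_pos_iff.1 (h4 ▸ hπ.natDegree_pos))
    (m := 1)).1 (h3.trans (pow_one _).symm)
  rw [h4] at h5
  by_contra h6
  have := h5.of_dvd (Nat.not_odd_iff_even.1 h6).two_dvd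
  unfold Nat.ModEq at this
  omega

/-- the natural representation -/
def suRep (n : ℕ) (F : Type*) [Field F] (q : ℕ) : SU n F q →* End F (Fin n → F) :=
  (slRep (Fin n) F).comp (SU n F q).subtype

theorem suRep_apply (g : SU n F q) (v : Fin n → F) : suRep n F q g v = g.1.1 *ᵥ v := rfl

theorem su_iso (g : SU n F q) (u v : Fin n → F) :
    hermForm n F q (suRep n F q g u) (suRep n F q g v) = hermForm n F q u v := su_form g u v

theorem su_adj (g : SU n F q) (p : F[X]) (u v : Fin n → F) :
    hermForm n F q (aeval (suRep n F q g) p u) v =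
      hermForm n F q u (aeval (suRep n F q g⁻¹) (p.map (cj q)) v) := by
  induction p using Polynomial.induction_on' with
  | add p r hp hr => simp [form_add_left, form_add_right, hp, hr]
  | monomial k a =>
    simp only [Polynomial.map_monomial, aeval_monomial, Algebra.algebraMap_eq_smul_one,
      smul_mul_assoc, one_mul, LinearMap.smul_apply, form_smul_left, form_smul_right, cj_cj,
      ← map_pow, inv_pow]
    rw [← su_iso (g ^ k) u, rho_inv']

theorem ti_of_even (g : SU n F q) {π : F[X]} (hπ : Irreducible π) (he : Even π.natDegree)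
    {u v : Fin n → F} (hu : aeval (suRep n F q g) π u = 0) (hv : aeval (suRep n F q g) π v = 0) :
    hermForm n F q u v = 0 := by
  obtain ⟨a, b, hab⟩ := hπ.coprime_iff_not_dvd.2 fun h =>
    Nat.not_odd_iff_even.2 he (odd_of_selfdual (q := q) hπ h)
  have h1 := congrArg (fun p => aeval (suRep n F q g) p v) hab
  rw [mul_comm b] at h1
  simp only [map_add, map_mul, LinearMap.add_apply, End.mul_apply, hv, map_zero, zero_add, map_one,
    End.one_apply] at h1
  rw [H72.Cls.aeval_reverse (y := suRep n F q g⁻¹) (by rw [← map_mul, inv_mul_cancel, map_one]),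
    End.mul_apply] at h1
  rw [← h1, ← su_adj, hu, form_zero_left]

theorem indep_of_gramH {ι : Type*} [Fintype ι] (u : ι → Fin n → F)
    (h : ∀ c : ι → F, (∀ j, ∑ i, c i * hermForm n F q (u i) (u j) = 0) → ∀ i, c i = 0) :
    LinearIndependent F u := by
  rw [Fintype.linearIndependent_iff]
  intro c hc
  refine h c fun j => ?_
  have := congrArg (formL q (u j)) hc
  simpa [map_sum, formL_apply, form_zero_left] using this

theorem eq_zero_of_perp {ι : Type*} [Fintype ι] {u : ι → Fin n → F} (hu : LinearIndependent F u)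
    (hc : Fintype.card ι = n) {y : Fin n → F} (h : ∀ i, hermForm n F q y (u i) = 0) : y = 0 := by
  refine eq_zero_of_form_eq_zero (q := q) fun v => form_eq_zero_symm ?_
  have h1 : Submodule.span F (Set.range u) ≤ LinearMap.ker (formL q y) := Submodule.span_le.2 (by
    rintro _ ⟨i, rfl⟩; exact form_eq_zero_symm (h i))
  rw [Submodule.eq_top_of_finrank_eq (S := Submodule.span F (Set.range u))
    (by rw [finrank_span_eq_card hu, hc]; simp)] at h1
  exact h1 Submodule.mem_top

theorem two_mul_le_of_ti {W : Submodule F (Fin n → F)}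
    (h : ∀ x ∈ W, ∀ y ∈ W, hermForm n F q x y = 0) : 2 * finrank F W ≤ n := by
  obtain ⟨c, hc⟩ := exists_trace_eq (F := F) (q := q) (map_one _)
  have := H28.PQ.TotSing.two_mul_finrank_le
    (P := H28.PQ.ofHerm cj_cj c hc (sesq n F q) fun x y => cj_form y x) sesq_nondegenerate.1
    (W := W) ⟨fun x hx => H28.PQ.ofHerm_q_mem.2 (h x hx x hx), fun x hx y hy => h y hy x hx⟩
  simpa using this

instance : Finite (SU n F q) := inferInstanceAs (Finite (SU n F q : Subgroup _))

theorem su_cen (hn : 2 ≤ n) (W : Submodule F (Fin n → F)) :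
    Subgroup.center (SU n F q) ≤ sst (suRep n F q) W := fun g hg => by
  obtain ⟨c, hc⟩ := (mem_center_SU_iff hn).1 hg
  exact smul_mem_sst _ (c := c) fun v => by rw [suRep_apply, hc, smul_mulVec, one_mulVec]

/-- stabilisers of non-isotropic points -/
def points (n : ℕ) (F : Type*) [Field F] [Fintype F] (q : ℕ) [IsSq F q] :
    Set (Subgroup (SU n F q)) :=
  {H | ∃ v, hermForm n F q v v = 1 ∧ H = sst (suRep n F q) (Submodule.span F {v})}

theorem good_points (hn : 2 ≤ n) : Good (Subgroup.center (SU n F q)) (points n F q) where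
  ne := by
    rintro _ ⟨v, hv, rfl⟩ htop
    have key : ∀ i : Fin n, ∃ a : F, a • v = Pi.single i 1 := fun i => by
      obtain ⟨g, hg⟩ := exists_su_norm hn (u := v) (u' := Pi.single i 1)
        (by rw [hv, form_single_single, if_pos rfl]) (by rw [hv]; exact one_ne_zero)
      have h1 : g ∈ sst (suRep n F q) (Submodule.span F {v}) := htop ▸ Subgroup.mem_top g
      have h2 := h1 v (Submodule.mem_span_singleton_self v)
      rw [suRep_apply, hg] at h2
      exact Submodule.mem_span_singleton.1 h2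
    obtain ⟨a, ha⟩ := key ⟨0, by omega⟩
    obtain ⟨b, hb⟩ := key ⟨1, by omega⟩
    have h1 := congrFun ha ⟨0, by omega⟩
    have h2 := congrFun hb ⟨0, by omega⟩
    have h3 := congrFun hb ⟨1, by omega⟩
    simp at h1 h2 h3
    rcases h2 with h2 | h2
    · simp [h2] at h3
    · simp [h2] at h1
  le := by rintro _ ⟨v, -, rfl⟩; exact su_cen hn _
  conj := by
    rintro _ ⟨v, hv, rfl⟩ _ ⟨w, hw, rfl⟩
    obtain ⟨a, ha⟩ := exists_su_norm hn (hv.trans hw.symm) (by rw [hv]; exact one_ne_zero)
    refine ⟨a, fun g hg => conj_mem_sst ?_ hg⟩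
    rw [Submodule.map_span, Set.image_singleton, suRep_apply, ha]

theorem iso_of_not_mem {g : SU n F q} (hg : ¬ ∃ H ∈ points n F q, g ∈ H) {v : Fin n → F} {c : F}
    (h : suRep n F q g v = c • v) : hermForm n F q v v = 0 := by
  by_contra h0
  obtain ⟨b, hb⟩ := exists_norm_eq (q := q) (c := (hermForm n F q v v)⁻¹)
    (by rw [map_inv₀, cj_form])
  refine hg ⟨_, ⟨b • v, by
    rw [form_smul_left, form_smul_right, ← mul_assoc, hb, inv_mul_cancel₀ h0], rfl⟩,
    mem_sst_span ?_⟩
  rintro _ rfl
  rw [map_smul, h, smul_comm]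
  exact Submodule.smul_mem _ _ (Submodule.mem_span_singleton_self _)

/-- totally isotropic planes -/
def TI (q : ℕ) (W : Submodule F (Fin n → F)) : Prop :=
  finrank F W = 2 ∧ ∀ x ∈ W, ∀ y ∈ W, hermForm n F q x y = 0

/-- stabilisers of totally isotropic planes -/
def lines (n : ℕ) (F : Type*) [Field F] [Fintype F] (q : ℕ) [IsSq F q] :
    Set (Subgroup (SU n F q)) :=
  {H | ∃ W, TI q W ∧ H = sst (suRep n F q) W}

theorem ti_span {s : Set (Fin n → F)} (h : ∀ x ∈ s, ∀ y ∈ s, hermForm n F q x y = 0) :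
    ∀ x ∈ Submodule.span F s, ∀ y ∈ Submodule.span F s, hermForm n F q x y = 0 := by
  have key : ∀ y, (∀ x ∈ s, hermForm n F q x y = 0) → ∀ x ∈ Submodule.span F s,
      hermForm n F q x y = 0 := fun y hy =>
    (Submodule.span_le.2 hy : Submodule.span F s ≤ LinearMap.ker (formL q y))
  exact fun x hx y hy => form_eq_zero_symm (key x (fun z hz => form_eq_zero_symm
    (key z (fun w hw => h w hw z hz) x hx)) y hy)

theorem finrank_pair {V : Type*} [AddCommGroup V] [Module F V] {u x : V} (hu : u ≠ 0)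
    (hx : ∀ a : F, a • u ≠ x) : finrank F (Submodule.span F {u, x}) = 2 := by
  have := finrank_span_eq_card ((LinearIndependent.pair_iff' hu).2 hx)
  rwa [Matrix.range_cons_cons_empty] at this

theorem exists_pair_of_finrank {V : Type*} [AddCommGroup V] [Module F V] [FiniteDimensional F V]
    {W : Submodule F V} (h : finrank F W = 2) {u : V} (hu : u ∈ W) (h0 : u ≠ 0) :
    ∃ x ∈ W, (∀ a : F, a • u ≠ x) ∧ W = Submodule.span F {u, x} := by
  obtain ⟨x, hx, hx'⟩ : ∃ x ∈ W, x ∉ Submodule.span F {u} := by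
    by_contra h1; push Not at h1
    have := Submodule.finrank_mono (h1 : W ≤ _)
    rw [finrank_span_singleton h0] at this; omega
  have h2 : ∀ a : F, a • u ≠ x := fun a ha => hx' (Submodule.mem_span_singleton.2 ⟨a, ha⟩)
  refine ⟨x, hx, h2, (Submodule.eq_of_le_of_finrank_eq (Submodule.span_le.2 ?_)
    (by rw [finrank_pair h0 h2, h])).symm⟩
  rintro _ (rfl | rfl) <;> assumption

theorem good_lines : Good (Subgroup.center (SU 4 F q)) (lines 4 F q) where
  ne := by
    rintro _ ⟨W, hW, rfl⟩ htop
    obtain ⟨u, hu, hu0⟩ := exists_ne_zero_of_finrank (W := W) (by rw [hW.1]; norm_num)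
    obtain ⟨v, -, hv, huv⟩ := nondeg_top.exists_partner trivial hu0 (hW.2 u hu u hu) 1 one_ne_zero
    obtain ⟨g, hg⟩ := exists_su_isotropic (by norm_num) hu0 (u' := v) (by
      rintro rfl; rw [form_zero_right] at huv; exact zero_ne_one huv) (hW.2 u hu u hu) hv
    have h1 : g ∈ sst (suRep 4 F q) W := htop ▸ Subgroup.mem_top g
    have h2 := h1 u hu
    rw [suRep_apply, hg] at h2
    exact zero_ne_one ((hW.2 u hu v h2).symm.trans huv)
  le := by rintro _ ⟨v, -, rfl⟩; exact su_cen (by norm_num) _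
  conj := by
    rintro _ ⟨W, hW, rfl⟩ _ ⟨W', hW', rfl⟩
    suffices h : ∃ a, W.map (suRep 4 F q a) = W' by
      obtain ⟨a, ha⟩ := h
      exact ⟨a, fun g hg => conj_mem_sst ha hg⟩
    obtain ⟨u, hu, hu0⟩ := exists_ne_zero_of_finrank (W := W) (by rw [hW.1]; norm_num)
    obtain ⟨u', hu', hu0'⟩ := exists_ne_zero_of_finrank (W := W') (by rw [hW'.1]; norm_num)
    obtain ⟨g, hg⟩ := exists_su_isotropic (by norm_num) hu0 hu0' (hW.2 u hu u hu)
      (hW'.2 u' hu' u' hu')
    obtain ⟨x, hx, h1, h2⟩ := exists_pair_of_finrank hW.1 hu hu0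
    obtain ⟨x', hx', h1', h2'⟩ := exists_pair_of_finrank hW'.1 hu' hu0'
    have e1 : hermForm 4 F q (g.1.1 *ᵥ x) (g.1.1 *ᵥ x) = 0 := by rw [su_form, hW.2 x hx x hx]
    have e2 : hermForm 4 F q u' (g.1.1 *ᵥ x) = 0 := by rw [← hg, su_form, hW.2 u hu x hx]
    have e3 : ∀ a : F, a • u' ≠ g.1.1 *ᵥ x := fun a ha => h1 a (by
      rw [← su_inv_mul g x, ← ha, ← hg, mulVec_smul, su_inv_mul])
    by_cases h0 : hermForm 4 F q (g.1.1 *ᵥ x) x' = 0
    · refine ⟨g, ?_⟩
      have h3 := two_mul_le_of_ti (ti_span (q := q) (s := {u', x', g.1.1 *ᵥ x}) (by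
        rintro _ (rfl | rfl | rfl) _ (rfl | rfl | rfl) <;>
          first | exact hW'.2 _ ‹_› _ ‹_› | assumption | (apply form_eq_zero_symm; assumption)))
      have h4 : W' = Submodule.span F {u', x', g.1.1 *ᵥ x} := by
        refine Submodule.eq_of_le_of_finrank_le ?_ (by rw [hW'.1]; omega)
        rw [h2']; exact Submodule.span_mono (by simp [Set.subset_def])
      rw [h2, Submodule.map_span, Set.image_pair, suRep_apply, suRep_apply, hg]
      refine Submodule.eq_of_le_of_finrank_eq (Submodule.span_le.2 ?_)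
        (by rw [finrank_pair hu0' e3, hW'.1])
      rintro _ (rfl | rfl)
      · exact hu'
      · rw [h4]; exact Submodule.subset_span (by simp)
    · obtain ⟨d, hd0, hd⟩ := exists_trace_zero F q
      obtain ⟨b, hb⟩ : ∃ b : F, cj q b * hermForm 4 F q (g.1.1 *ᵥ x) x' = d :=
        ⟨cj q (d / _), by rw [cj_cj, div_mul_cancel₀ _ h0]⟩
      have hb0 : b ≠ 0 := by rintro rfl; simp at hb; exact hd0 hb.symm
      obtain ⟨t, -, t1, t2⟩ := rel_of_trace_zero (W := ⊤) (x := u') (u' := b • x') trivial trivial e1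
        (hW'.2 _ (W'.smul_mem _ hx') _ (W'.smul_mem _ hx')) (by rwa [form_smul_right, hb])
        (by rw [form_smul_right, hb, hd]) (by rw [e2, hW'.2 _ hu' _ (W'.smul_mem _ hx')])
      refine ⟨t * g, ?_⟩
      rw [h2, Submodule.map_span, Set.image_pair, suRep_apply, suRep_apply, su_mul, su_mul, hg, t1,
        t2, h2', Submodule.span_insert, Submodule.span_insert,
        Submodule.span_singleton_smul_eq hb0.isUnit]

theorem not_even {g : SU 4 F q} (hg : ¬ ∃ H ∈ lines 4 F q, g ∈ H) {π : F[X]} (hπ : Irreducible π)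
    (he : Even π.natDegree) {x : Fin 4 → F} (hx : aeval (suRep 4 F q g) π x = 0) : x = 0 := by
  by_contra h0
  let K := LinearMap.ker (aeval (suRep 4 F q g) π)
  have hK : ∀ v ∈ K, suRep 4 F q g v ∈ K := fun v hv => by
    have h1 : aeval (suRep 4 F q g) (π * X) = aeval (suRep 4 F q g) (X * π) := by rw [mul_comm]
    have h2 := LinearMap.congr_fun h1 v
    simp only [map_mul, aeval_X, End.mul_apply, LinearMap.mem_ker.1 hv, map_zero] at h2
    exact h2
  have h1 := two_mul_le_of_ti (W := K) fun x hx y hy => ti_of_even g hπ he hx hy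
  have h2 : 2 ≤ π.natDegree := by
    have := hπ.natDegree_pos
    obtain ⟨k, hk⟩ := he; omega
  have h3 := finrank_span_eq_card (indep_pow hπ h0 hx h2)
  have h4 := Submodule.finrank_mono (Submodule.span_le.2 (show Set.range
    (fun i : Fin 2 => (suRep 4 F q g ^ (i : ℕ)) x) ⊆ K by
      rintro _ ⟨i, rfl⟩
      fin_cases i
      · exact hx
      · exact hK x hx))
  rw [h3, Fintype.card_fin] at h4
  exact hg ⟨_, ⟨K, ⟨by omega, fun x hx y hy => ti_of_even g hπ he hx hy⟩, rfl⟩, hK⟩

theorem cover_su4 (g : SU 4 F q) : (∃ H ∈ points 4 F q, g ∈ H) ∨ ∃ H ∈ lines 4 F q, g ∈ H := by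
  by_contra hcon
  rw [not_or] at hcon
  obtain ⟨hp, hl⟩ := hcon
  by_cases hr : ∀ c, ¬ g.1.1.charpoly.IsRoot c
  · obtain ⟨π, hπ, hd, hinj⟩ := exists_irred_not_inj (suRep 4 F q g) g.1.1.charpoly_monic.ne_zero
      (by
        change aeval (toLinAlgEquiv' g.1.1) _ = 0
        rw [aeval_algHom_apply, aeval_self_charpoly, map_zero])
    obtain ⟨h1, h2, h3⟩ := deg_factor g.1.1.charpoly_monic.ne_zero hr hπ hd
    rw [charpoly_natDegree_eq_dim, Fintype.card_fin] at h2 h3
    exact hinj ((injective_iff_map_eq_zero _).2 fun x hx =>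
      not_even hl hπ ⟨π.natDegree / 2, by omega⟩ hx)
  push Not at hr
  obtain ⟨l, hr⟩ := hr
  obtain ⟨v, hv0, hv⟩ := exists_eigen hr
  change suRep 4 F q g v = _ at hv
  have iso := su_iso g
  generalize hT : suRep 4 F q g = T at hv iso
  have vv : hermForm 4 F q v v = 0 := iso_of_not_mem hp (hT ▸ hv)
  obtain ⟨v', -, v'v', vv'⟩ := nondeg_top.exists_partner trivial hv0 vv 1 one_ne_zero
  have v'v := form_eq_one_symm vv'
  have hl0 : cj q l ≠ 0 := by
    intro h
    have := iso v' v
    rw [hv, form_smul_right, h, zero_mul, v'v] at this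
    exact zero_ne_one this
  have perpT : ∀ x, hermForm 4 F q x v = 0 → hermForm 4 F q (T x) v = 0 := fun x hx => by
    have := iso x v
    rw [hv, form_smul_right, hx] at this
    exact (mul_eq_zero.1 this).resolve_left hl0
  have hU := nondeg_top.perp_pair trivial trivial vv v'v' (by rw [vv']; exact one_ne_zero)
  have dU : 2 ≤ finrank F (perp q (perp q ⊤ v) v') := by
    have h1 := finrank_le_perp (q := q) ⊤ v
    have h2 := finrank_le_perp (q := q) (perp q ⊤ v) v'
    rw [finrank_top'] at h1; omega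
  generalize hUU : perp q (perp q ⊤ v) v' = U at hU dU
  have memU : ∀ x ∈ U, hermForm 4 F q x v = 0 ∧ hermForm 4 F q x v' = 0 := fun x hx => by
    rw [← hUU] at hx; exact ⟨hx.1.2, hx.2⟩
  have frame : ∀ e ∈ U, hermForm 4 F q e e ≠ 0 → ∃ f ∈ U, hermForm 4 F q f f ≠ 0 ∧
      hermForm 4 F q f e = 0 ∧
      ∀ x, hermForm 4 F q x v = 0 → ∃ a b c : F, x = a • e + b • f + c • v := by
    intro e he ee
    obtain ⟨f, hf, ff⟩ := (hU.perp he ee).exists_nonisotropic (by
      have := finrank_le_perp (q := q) U e; omega)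
    obtain ⟨ev, ev'⟩ := memU e he
    obtain ⟨fv, fv'⟩ := memU f hf.1
    have fe : hermForm 4 F q f e = 0 := hf.2
    have ef := form_eq_zero_symm fe
    have ve := form_eq_zero_symm ev
    have vf := form_eq_zero_symm fv
    have v'e := form_eq_zero_symm ev'
    have v'f := form_eq_zero_symm fv'
    refine ⟨f, hf.1, ff, fe, fun x hx => ⟨hermForm 4 F q x e / hermForm 4 F q e e,
      hermForm 4 F q x f / hermForm 4 F q f f, hermForm 4 F q x v', ?_⟩⟩
    have hi : LinearIndependent F ![e, f, v, v'] := indep_of_gramH (q := q) _ fun c hc => by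
      have h0 := hc 0
      have h1 := hc 1
      have h2 := hc 2
      have h3 := hc 3
      simp [Fin.sum_univ_four, ee, ff, ef, fe, ev, ev', fv, fv', ve, vf, v'e, v'f, vv, vv', v'v,
        v'v'] at h0 h1 h2 h3
      intro i; fin_cases i <;> simp [h0, h1, h2, h3]
    rw [← sub_eq_zero]
    refine eq_zero_of_perp (q := q) hi (by simp) fun i => ?_
    fin_cases i <;> simp [form_sub_left, form_add_left, form_smul_left, ee, ff, ef, fe, ev, ev', fv,
      fv', ve, vf, vv, vv', hx]
  have A : ∀ (w : Fin 4 → F) (m s : F), hermForm 4 F q w v = 0 → (∀ a : F, a • v ≠ w) →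
      T w = m • w + s • v → hermForm 4 F q w w ≠ 0 := by
    intro w m s wv hw hTw ww
    refine hl ⟨_, ⟨Submodule.span F {v, w}, ⟨finrank_pair hv0 hw, ti_span ?_⟩, rfl⟩,
      mem_sst_span ?_⟩
    · rintro _ (rfl | rfl) _ (rfl | rfl) <;>
        first | assumption | (apply form_eq_zero_symm; assumption)
    · have m0 : v ∈ Submodule.span F {v, w} := Submodule.subset_span (by simp)
      have m1 : w ∈ Submodule.span F {v, w} := Submodule.subset_span (by simp)
      rintro _ (rfl | rfl)
      · rw [hT, hv]; exact Submodule.smul_mem _ _ m0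
      · rw [hT, hTw]; exact add_mem (Submodule.smul_mem _ _ m1) (Submodule.smul_mem _ _ m0)
  have B : ∀ (w : Fin 4 → F) (m s : F), hermForm 4 F q w v = 0 → hermForm 4 F q w w ≠ 0 →
      T w = m • w + s • v → m = l := by
    intro w m s wv ww hTw
    by_contra hm
    obtain ⟨t, ht⟩ : ∃ t, t * (m - l) = s := ⟨_, div_mul_cancel₀ s (sub_ne_zero.2 hm)⟩
    have := iso_of_not_mem hp (v := w + t • v) (c := m) (by
      rw [hT, map_add, map_smul, hTw, hv, ← ht]; module)
    simp [form_add_left, form_add_right, form_smul_left, form_smul_right, wv, vv,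
      form_eq_zero_symm wv] at this
    exact ww this
  obtain ⟨e, he, ee⟩ := hU.exists_nonisotropic (by omega)
  obtain ⟨f, hf, ff, fe, hfr⟩ := frame e he ee
  obtain ⟨a, b, x, Te⟩ := hfr _ (perpT e (memU e he).1)
  obtain ⟨c, d, y, Tf⟩ := hfr _ (perpT f (memU f hf).1)
  by_cases hψ : ∀ m : F, (a - m) * (d - m) - c * b ≠ 0
  · have hd : (X ^ 2 - C (a + d) * X + C (a * d - c * b) : F[X]).natDegree = 2 := by compute_degree!
    have hirr : Irreducible (X ^ 2 - C (a + d) * X + C (a * d - c * b) : F[X]) := by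
      rw [irreducible_iff_roots_eq_zero_of_degree_le_three (by omega) (by omega),
        Multiset.eq_zero_iff_forall_notMem]
      intro m hm
      have := isRoot_of_mem_roots hm
      simp only [IsRoot, eval_sub, eval_add, eval_mul, eval_pow, eval_X, eval_C] at this
      exact hψ m (by linear_combination this)
    have := not_even hl hirr (by rw [hd]; exact even_two) (x := T e - l • e) (by
      rw [hT]
      simp only [map_add, map_sub, map_mul, map_pow, aeval_X, aeval_C,
        Algebra.algebraMap_eq_smul_one, LinearMap.add_apply, LinearMap.sub_apply, End.mul_apply,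
        LinearMap.smul_apply, End.one_apply, sq, map_smul, Te, Tf, hv]
      module)
    exact ee (iso_of_not_mem hp (hT ▸ sub_eq_zero.1 this))
  push Not at hψ
  obtain ⟨m, hm⟩ := hψ
  obtain ⟨z, hz0, hz⟩ := (Matrix.exists_mulVec_eq_zero_iff (M := !![a - m, c; b, d - m])).2
    (by simpa using hm)
  have z0 := congrFun hz 0
  have z1 := congrFun hz 1
  simp [mulVec, dotProduct, Fin.sum_univ_two] at z0 z1
  have hw : z 0 • e + z 1 • f ∈ U := add_mem (U.smul_mem _ he) (U.smul_mem _ hf)
  have Tw : T (z 0 • e + z 1 • f) = m • (z 0 • e + z 1 • f) + (z 0 * x + z 1 * y) • v := by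
    rw [map_add, map_smul, map_smul, Te, Tf]
    linear_combination (norm := module) z0 • e + z1 • f
  have hw0 : ∀ t : F, t • v ≠ z 0 • e + z 1 • f := by
    intro t ht
    have h1 := congrArg (fun u => hermForm 4 F q u e) ht
    have h2 := congrArg (fun u => hermForm 4 F q u f) ht
    simp [form_add_left, form_smul_left, fe, form_eq_zero_symm fe, ee, ff,
      form_eq_zero_symm (memU e he).1, form_eq_zero_symm (memU f hf).1] at h1 h2
    exact hz0 (funext fun i => by fin_cases i <;> simp [h1, h2])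
  generalize z 0 • e + z 1 • f = w at hw Tw hw0
  have wv := (memU w hw).1
  have ww := A w _ _ wv hw0 Tw
  obtain rfl := B w _ _ wv ww Tw
  obtain ⟨f', hf', ff', f'w, hfr'⟩ := frame w hw ww
  have f'v := (memU f' hf').1
  obtain ⟨a', b', y', Tf'⟩ := hfr' _ (perpT f' f'v)
  have ha' : a' = 0 := by
    have := iso f' w
    simpa [Tf', Tw, form_add_left, form_add_right, form_smul_left, form_smul_right, f'w, wv, f'v,
      vv, form_eq_zero_symm wv, ww, cj_ne_zero.1 hl0] using this
  rw [ha', zero_smul, zero_add] at Tf'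
  obtain rfl := B f' _ _ f'v ff' Tf'
  obtain ⟨k, hk⟩ := exists_norm_eq (q := q) (c := -hermForm 4 F q w w / hermForm 4 F q f' f')
    (by rw [map_div₀, map_neg, cj_form, cj_form])
  refine A (w + k • f') b' (z 0 * x + z 1 * y + k * y') ?_ (fun t ht => ?_) ?_ ?_
  · simp [form_add_left, form_smul_left, wv, f'v]
  · have h1 := congrArg (fun u => hermForm 4 F q u w) ht
    simp [form_add_left, form_smul_left, f'w, form_eq_zero_symm wv] at h1
    exact ww h1.symm
  · rw [map_add, map_smul, Tw, Tf']; module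
  · simp only [form_add_left, form_add_right, form_smul_left, form_smul_right, f'w,
      form_eq_zero_symm f'w]
    rw [eq_div_iff ff'] at hk
    linear_combination hk

theorem cov_psu4 : Cov (PSU 4 F q) := cov_quot (good_points (by norm_num)) good_lines cover_su4

end H82.Cov2
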