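import Mathlib
import Cfsg.Agent.Lib.Cov2.SU4
import Cfsg.Agent.Lib.StarAlg.Unitary

/-!
`SU₃(3^a)` is covered by the stabilisers of non-isotropic points and of cubic field structures.
-/

set_option autoImplicit false
set_option linter.unusedSectionVars false
set_option linter.unusedSimpArgs false

namespace H82.Cov2

open Polynomial Module Matrix Cfsg H11.U H66

variable {F : Type*} [Field F] [Fintype F] {q : ℕ} [IsSq F q] [CharP F 3]

theorem su_star {n : ℕ} (g : SU n F q) : cstar (cj q) g.1.1 * g.1.1 = 1 :=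
  (H66.mem_SU_iff (σ := cj q) cj_apply _).1 g.2

theorem cube_inj {a b : F} (h : a ^ 3 = b ^ 3) : a = b := (frobenius F 3).injective h

theorem exists_su_scale {c : Matrix (Fin 3) (Fin 3) F} (hc : cstar (cj q) c * c = 1) :
    ∃ (g : SU 3 F q) (z : F), z ≠ 0 ∧ g.1.1 = z • c := by
  have h1 := congrArg det hc
  rw [det_mul, det_cstar, det_one] at h1
  obtain ⟨z, hz⟩ : ∃ z : F, z ^ 3 = cj q c.det := (frobeniusEquiv F 3).surjective _
  have h2 : z * cj q z = 1 := cube_inj (by
    rw [mul_pow, ← map_pow, hz, cj_cj, h1, one_pow])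
  refine ⟨⟨⟨z • c, by rw [det_smul, Fintype.card_fin, hz, h1]⟩,
    (H66.mem_SU_iff (σ := cj q) cj_apply _).2 ?_⟩, z, left_ne_zero_of_mul_eq_one h2, rfl⟩
  change cstar (cj q) (z • c) * (z • c) = 1
  rw [cstar_smul, smul_mul_smul_comm, hc, mul_comm, h2, one_smul]

theorem exists_unitary_conj_sa {θ θ' P : Matrix (Fin 3) (Fin 3) F} (hθ : cstar (cj q) θ = θ)
    (hθ' : cstar (cj q) θ' = θ') (hP : IsUnit P) (h : P * θ = θ' * P) :
    ∃ c : Matrix (Fin 3) (Fin 3) F, cstar (cj q) c * c = 1 ∧ c * θ = θ' * c := by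
  obtain ⟨a, ha⟩ := exists_cj_ne F q
  have h1 : cstar (cj q) P * θ' = θ * cstar (cj q) P := by
    have := congrArg (cstar (cj q)) h
    rw [cstar_mul, cstar_mul, hθ, hθ'] at this
    exact this.symm
  have hs : Commute θ (cstar (cj q) P * P) := by
    change _ = _
    rw [← mul_assoc, ← h1, mul_assoc, ← h, mul_assoc]
  have hss : cstar (cj q) (cstar (cj q) P * P) = cstar (cj q) P * P := by
    rw [cstar_mul, cstar_cstar cj_cj]
  obtain ⟨c, hc, hu, -, h2⟩ := H66.exists_norm_eq (cstar (cj q)) (cstar_mul _) (cstar_one _)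
    {a • 1, cj q a • 1, cstar (cj q) P * P} (by
      rintro _ (rfl | rfl | rfl) _ (rfl | rfl | rfl) <;> simp [smul_smul, mul_comm]) (by
      rintro _ (rfl | rfl | rfl) <;> refine Subring.subset_closure ?_ <;>
        simp [cstar_smul, cstar_one, cj_cj, hss]) (fun x _ => cstar_cstar cj_cj x)
    (a • 1) (Subring.subset_closure (by simp)) (isUnit_scalar_sub_cstar ha) _
    (Subring.subset_closure (by simp)) hss ((isUnit_cstar _ hP).mul hP)
  have h3 : Commute θ c := commute_of_mem_closure (by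
    rintro _ (rfl | rfl | rfl)
    · exact (commute_smul_one _ _).symm
    · exact (commute_smul_one _ _).symm
    · exact hs) hc
  obtain ⟨u, rfl⟩ := hu
  refine ⟨P * u⁻¹.val, ?_, ?_⟩
  · rw [cstar_mul, mul_assoc, ← mul_assoc _ P, ← h2, mul_assoc, Units.mul_inv, mul_one, ← cstar_mul,
      Units.mul_inv, cstar_one]
  · rw [mul_assoc, ← h3.units_inv_right.eq, ← mul_assoc, h, mul_assoc]

/-- the normaliser of a cubic field structure -/
def ust (q : ℕ) [IsSq F q] (θ : Matrix (Fin 3) (Fin 3) F) : Subgroup (SU 3 F q) :=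
  toSub { carrier := {g | ∃ c : F, θ * g.1.1 = g.1.1 * θ + c • g.1.1}
          mul_mem' := by
            rintro a b ⟨c, hc⟩ ⟨d, hd⟩
            refine ⟨c + d, ?_⟩
            change θ * (a.1.1 * b.1.1) = a.1.1 * b.1.1 * θ + (c + d) • (a.1.1 * b.1.1)
            rw [← mul_assoc, hc, add_mul, mul_assoc, hd, mul_add, smul_mul_assoc,
              mul_smul_comm, add_smul, mul_assoc]
            abel
          one_mem' := ⟨0, by change θ * 1 = 1 * θ + _; simp⟩ }

/-- stabilisers of cubic field structures -/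
def ucubics (q : ℕ) [IsSq F q] (a : F) : Set (Subgroup (SU 3 F q)) :=
  {H | ∃ θ, cstar (cj q) θ = θ ∧ θ * (θ * θ) = θ + a • 1 ∧ H = ust q θ}

theorem aeval_as {θ : Matrix (Fin 3) (Fin 3) F} {a : F} :
    aeval θ (X ^ 3 - X - C a : F[X]) = 0 ↔ θ * (θ * θ) = θ + a • 1 := by
  rw [map_sub, map_sub, map_pow, aeval_X, aeval_C, Algebra.algebraMap_eq_smul_one, pow_three,
    sub_sub, sub_eq_zero]

theorem good_ucubics {a : F} (ha : ∀ x : F, x ^ 3 - x ≠ a) :
    Good (Subgroup.center (SU 3 F q)) (ucubics q a) where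
  ne := by
    rintro _ ⟨θ, -, hθ, rfl⟩ htop
    have two : (2 : F) ≠ 0 := fun h2 => one_ne_zero (α := F) (by
      linear_combination (CharP.cast_eq_zero F 3 : (3 : F) = 0) - h2)
    let g : SU 3 F q := ⟨⟨!![-1, 0, 0; 0, -1, 0; 0, 0, 1], by simp [det_fin_three]⟩,
      (H66.mem_SU_iff (σ := cj q) cj_apply _).2 (by
        ext i j; fin_cases i <;> fin_cases j <;> simp [cstar_apply, mul_apply, Fin.sum_univ_three])⟩
    obtain ⟨c, hc⟩ : g ∈ ust q θ := htop ▸ Subgroup.mem_top g
    have h1 := congrFun (congrFun hc 0) 2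
    have h2 := congrFun (congrFun hc 1) 2
    simp [g, mul_apply, vecMul, dotProduct, Fin.sum_univ_three] at h1 h2
    have h3 : θ 0 2 = 0 := (mul_eq_zero.1 (by linear_combination h1 : 2 * θ 0 2 = 0)).resolve_left two
    have h4 : θ 1 2 = 0 := (mul_eq_zero.1 (by linear_combination h2 : 2 * θ 1 2 = 0)).resolve_left two
    have h5 := congrFun (congrFun hθ 2) 2
    simp [mul_apply, Fin.sum_univ_three, h3, h4] at h5
    exact ha (θ 2 2) (by linear_combination h5)
  le := by
    rintro _ ⟨θ, -, -, rfl⟩ g hg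
    obtain ⟨c, hc⟩ := (mem_center_SU_iff (by norm_num)).1 hg
    exact ⟨0, by rw [hc]; simp⟩
  conj := by
    rintro _ ⟨θ, hs, hθ, rfl⟩ _ ⟨θ', hs', hθ', rfl⟩
    obtain ⟨P, hP⟩ := isConj_of_irred (irred_as ha).1 (aeval_as.2 hθ) (aeval_as.2 hθ')
    obtain ⟨c, hc, hc'⟩ := exists_unitary_conj_sa hs hs' P.isUnit hP.eq
    obtain ⟨t, z, -, ht⟩ := exists_su_scale hc
    have h1 : θ' * t.1.1 = t.1.1 * θ := by rw [ht, mul_smul_comm, smul_mul_assoc, hc']
    have i1 : t.1.1 * (t⁻¹).1.1 = 1 := congrArg (fun x : SU 3 F q => x.1.1) (mul_inv_cancel t)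
    have i2 : (t⁻¹).1.1 * t.1.1 = 1 := congrArg (fun x : SU 3 F q => x.1.1) (inv_mul_cancel t)
    have h2 : θ * (t⁻¹).1.1 = (t⁻¹).1.1 * θ' := by
      rw [← mul_one ((t⁻¹).1.1 * θ'), ← i1, mul_assoc, ← mul_assoc θ', h1, ← mul_assoc,
        ← mul_assoc, i2, one_mul]
    refine ⟨t, ?_⟩
    rintro g ⟨e, he⟩
    refine ⟨e, ?_⟩
    change θ' * (t.1.1 * g.1.1 * (t⁻¹).1.1) = t.1.1 * g.1.1 * (t⁻¹).1.1 * θ' +
      e • (t.1.1 * g.1.1 * (t⁻¹).1.1)
    rw [← mul_assoc, ← mul_assoc, h1, mul_assoc t.1.1, he, mul_add, add_mul,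
      mul_assoc, mul_assoc, h2, mul_smul_comm, smul_mul_assoc]
    simp only [mul_assoc]

theorem exists_as (F : Type*) [Field F] [Fintype F] (q : ℕ) [IsSq F q] [CharP F 3] :
    ∃ a : F, cj q a = a ∧ ∀ x : F, x ^ 3 - x ≠ a := by
  obtain ⟨a, ha⟩ : ∃ a : fixedField F q, ∀ x : fixedField F q, x ^ 3 - x ≠ a := by
    by_contra h1; push Not at h1
    have := Finite.injective_iff_surjective.2 h1 (a₁ := 0) (a₂ := 1) (by simp)
    exact zero_ne_one this
  refine ⟨a, a.2, fun x hx => ha ⟨-(x + cj q x), by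
    rw [mem_fixedField, map_neg, cj_trace]⟩ (Subtype.ext ?_)⟩
  have h1 := congrArg (cj q) hx
  rw [map_sub, map_pow, mem_fixedField.1 a.2] at h1
  change (-(x + cj q x)) ^ 3 - -(x + cj q x) = a
  linear_combination -hx - h1 - (x ^ 2 * cj q x + x * cj q x ^ 2 + a) *
    (CharP.cast_eq_zero F 3 : (3 : F) = 0)

theorem mem_ucubics_irred {a : F} (ha : ∀ x : F, x ^ 3 - x ≠ a) (ha' : cj q a = a) {g : SU 3 F q}
    (hr : ∀ c, ¬ g.1.1.charpoly.IsRoot c) : ∃ H ∈ ucubics q a, g ∈ H := by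
  obtain ⟨hf, hd⟩ := irred_as ha
  obtain ⟨p, hp⟩ := exists_root g.1.1 g.1.1.charpoly_monic.ne_zero (aeval_self_charpoly _) hf
    fun π hπ h => by
      obtain ⟨h1, h2, h3⟩ := deg_factor g.1.1.charpoly_monic.ne_zero hr hπ h
      rw [charpoly_natDegree_eq_dim, Fintype.card_fin] at h2 h3
      rw [hd, show π.natDegree = 3 by omega]
  rw [aeval_as] at hp
  have hc : ∀ z, Commute g.1.1 z → Commute (aeval g.1.1 p) z := fun z hz => by
    clear hp
    induction p using Polynomial.induction_on' with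
    | add p r hp hr => rw [map_add]; exact hp.add_left hr
    | monomial n b =>
      rw [aeval_monomial]; exact Commute.mul_left (Algebra.commutes b z) (hz.pow_left n)
  generalize aeval g.1.1 p = θ at hp hc
  have h1 := (hc _ (Commute.refl _)).eq
  have h2 : Commute g.1.1 (cstar (cj q) θ) := by
    have h3 := congrArg (cstar (cj q)) h1
    rw [cstar_mul, cstar_mul] at h3
    have h4 := su_star g
    have h5 := mul_eq_one_comm.1 h4
    change _ = _
    rw [← one_mul (cstar (cj q) θ * g.1.1), ← h5, mul_assoc, ← mul_assoc _ _ g.1.1, h3, mul_assoc,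
      h4, mul_one]
  have h3 := (hc _ h2).eq
  have h4 := congrArg (cstar (cj q)) hp
  rw [cstar_mul, cstar_mul, map_add, cstar_smul, cstar_one, ha', mul_assoc] at h4
  refine ⟨_, ⟨-(θ + cstar (cj q) θ), by rw [map_neg, map_add, cstar_cstar cj_cj, add_comm], ?_, rfl⟩,
    0, ?_⟩
  · generalize cstar (cj q) θ = θ' at h3 h4
    have h5 : ∀ w, θ * (θ' * w) = θ' * (θ * w) := fun w => by rw [← mul_assoc, h3, mul_assoc]
    simp only [neg_mul, mul_neg, neg_neg, mul_add, add_mul, h3, h5, hp, h4]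
    linear_combination (norm := module) (CharP.cast_eq_zero F 3 : (3 : F) = 0) •
      (-(θ' * (θ * θ)) - θ' * (θ' * θ) - a • 1)
  · rw [zero_smul, add_zero, neg_mul, mul_neg, add_mul, mul_add, h1, h2.eq]

theorem mem_ucubics_unip {a : F} (ha' : cj q a = a) {g : SU 3 F q}
    (h3 : g.1.1 * (g.1.1 * g.1.1) = 1) {x : Fin 3 → F}
    (hx : LinearIndependent F ![x, g.1.1 *ᵥ x, g.1.1 *ᵥ (g.1.1 *ᵥ x)]) :
    ∃ H ∈ ucubics q a, g ∈ H := by
  have t3 : (3 : F) = 0 := CharP.cast_eq_zero F 3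
  let C : Matrix (Fin 3) (Fin 3) F := !![0, 0, 1; 1, 0, 0; 0, 1, 0]
  obtain ⟨c, hc⟩ : ∃ c : F, c ^ 3 = -a := (frobeniusEquiv F 3).surjective _
  have hc' : cj q c = c := cube_inj (by rw [← map_pow, hc, map_neg, ha'])
  let D : Matrix (Fin 3) (Fin 3) F := !![0, c, c; c, 1, c; c, c, -1]
  let P : Matrix (Fin 3) (Fin 3) F := (Matrix.of ![x, g.1.1 *ᵥ x, g.1.1 *ᵥ (g.1.1 *ᵥ x)])ᵀ
  have hP : IsUnit P := linearIndependent_cols_iff_isUnit.1 hx
  have h4 : g.1.1 *ᵥ (g.1.1 *ᵥ (g.1.1 *ᵥ x)) = x := by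
    rw [mulVec_mulVec, mulVec_mulVec, mul_assoc, h3, one_mulVec]
  obtain ⟨u, hu, hu'⟩ := exists_unitary_conj_matrix cj_cj (exists_cj_ne F q) C g.1.1 (by
    ext i j; fin_cases i <;> fin_cases j <;> simp [C, cstar_apply, mul_apply, Fin.sum_univ_three])
    (su_star g) P hP (by
      ext i j
      have : (g.1.1 * P) i j = (g.1.1 *ᵥ (![x, g.1.1 *ᵥ x, g.1.1 *ᵥ (g.1.1 *ᵥ x)] j)) i := rfl
      rw [this]
      fin_cases j <;> simp [C, P, mul_apply, Fin.sum_univ_three, h4, -mulVec_mulVec])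
  have hu2 := mul_eq_one_comm.1 hu
  have e1 : cstar (cj q) D = D := by
    ext i j; fin_cases i <;> fin_cases j <;> simp [D, cstar_apply, hc']
  have e2 : D * (D * D) = D + a • 1 := by
    ext i j; fin_cases i <;> fin_cases j <;> simp [D, mul_apply, Fin.sum_univ_three] <;> grind
  have e3 : D * C = C * D + C := by
    ext i j; fin_cases i <;> fin_cases j <;> simp [D, C, mul_apply, Fin.sum_univ_three]
    grind
  have e4 : cstar (cj q) u * g.1.1 = C * cstar (cj q) u := by
    rw [← mul_one (_ * g.1.1), ← hu2, mul_assoc, ← mul_assoc g.1.1, ← hu', ← mul_assoc,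
      ← mul_assoc, hu, one_mul]
  have i1 : ∀ w, cstar (cj q) u * (u * w) = w := fun w => by rw [← mul_assoc, hu, one_mul]
  refine ⟨_, ⟨u * (D * cstar (cj q) u), ?_, ?_, rfl⟩, 1, ?_⟩
  · rw [cstar_mul, cstar_mul, cstar_cstar cj_cj, e1, mul_assoc]
  · simp only [mul_assoc, i1]
    rw [← mul_assoc D D (cstar (cj q) u), ← mul_assoc D, e2, add_mul, mul_add,
      smul_mul_assoc, mul_smul_comm, one_mul, hu2]
  · rw [mul_assoc, mul_assoc, e4, ← mul_assoc D, e3, add_mul, mul_add, ← mul_assoc u C, hu',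
      mul_assoc C, ← mul_assoc u C, hu', one_smul, mul_assoc, mul_assoc, hu2, mul_one]

theorem cover_su3 {a : F} (ha : ∀ x : F, x ^ 3 - x ≠ a) (ha' : cj q a = a) (g : SU 3 F q) :
    (∃ H ∈ points 3 F q, g ∈ H) ∨ ∃ H ∈ ucubics q a, g ∈ H := by
  by_cases hp : ∃ H ∈ points 3 F q, g ∈ H
  · exact Or.inl hp
  right
  by_cases hr : ∀ c, ¬ g.1.1.charpoly.IsRoot c
  · exact mem_ucubics_irred ha ha' hr
  push Not at hr
  obtain ⟨l, hr⟩ := hr
  obtain ⟨v, hv0, hv⟩ := exists_eigen hr
  have iso := su_form g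
  have vv : hermForm 3 F q v v = 0 := iso_of_not_mem hp hv
  obtain ⟨v', -, v'v', vv'⟩ := nondeg_top.exists_partner trivial hv0 vv 1 one_ne_zero
  have v'v := form_eq_one_symm vv'
  have hl : cj q l * hermForm 3 F q (g.1.1 *ᵥ v') v = 1 := by
    rw [← form_smul_right, ← hv, iso, v'v]
  have hl0 : cj q l ≠ 0 := left_ne_zero_of_mul_eq_one hl
  obtain ⟨e, he, ee⟩ := (nondeg_top.perp_pair trivial trivial vv v'v'
    (by rw [vv']; exact one_ne_zero)).exists_nonisotropic (by
      have h1 := finrank_le_perp (q := q) ⊤ v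
      have h2 := finrank_le_perp (q := q) (perp q ⊤ v) v'
      rw [finrank_top'] at h1; omega)
  have ev : hermForm 3 F q e v = 0 := he.1.2
  have ev' : hermForm 3 F q e v' = 0 := he.2
  have ve := form_eq_zero_symm ev
  have v'e := form_eq_zero_symm ev'
  have hi : LinearIndependent F ![e, v, v'] := indep_of_gramH (q := q) _ fun c hc => by
    have h0 := hc 0
    have h1 := hc 1
    have h2 := hc 2
    simp [Fin.sum_univ_three, ee, ev, ev', ve, v'e, vv, vv', v'v, v'v'] at h0 h1 h2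
    intro i; fin_cases i <;> simp [h0, h1, h2]
  have fr : ∀ x, ∃ a c : F, x = a • e + c • v + hermForm 3 F q x v • v' := fun x => by
    refine ⟨hermForm 3 F q x e / hermForm 3 F q e e, hermForm 3 F q x v', ?_⟩
    rw [← sub_eq_zero]
    refine eq_zero_of_perp (q := q) hi (by simp) fun i => ?_
    fin_cases i <;> simp [form_sub_left, form_add_left, form_smul_left, ee, ev, ev', ve, v'e, vv,
      vv', v'v, v'v']
  obtain ⟨m, s, Te⟩ := fr (g.1.1 *ᵥ e)
  have h1 : hermForm 3 F q (g.1.1 *ᵥ e) v = 0 := by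
    have := iso e v
    rw [hv, form_smul_right, ev] at this
    exact (mul_eq_zero.1 this).resolve_left hl0
  rw [h1, zero_smul, add_zero] at Te
  obtain rfl : m = l := by
    by_contra hm
    obtain ⟨t, ht⟩ : ∃ t, t * (m - l) = s := ⟨_, div_mul_cancel₀ s (sub_ne_zero.2 hm)⟩
    have := iso_of_not_mem hp (v := e + t • v) (c := m) (by
      rw [suRep_apply, mulVec_add, mulVec_smul, Te, hv, ← ht]; module)
    simp [form_add_left, form_add_right, form_smul_left, form_smul_right, ev, vv, ve] at this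
    exact ee this
  have hs : s ≠ 0 := by
    rintro rfl
    exact ee (iso_of_not_mem hp (c := m) (by rw [suRep_apply, Te, zero_smul, add_zero]))
  have h2 : m * cj q m = 1 := by
    have := iso e e
    simp only [Te, form_add_left, form_add_right, form_smul_left, form_smul_right, ev, vv,
      ve] at this
    exact mul_right_cancel₀ ee (by linear_combination this)
  obtain ⟨t, r, Tv'⟩ := fr (g.1.1 *ᵥ v')
  rw [show hermForm 3 F q (g.1.1 *ᵥ v') v = m from mul_left_cancel₀ hl0 (by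
    rw [hl, mul_comm, h2])] at Tv'
  have ht : t ≠ 0 := by
    rintro rfl
    have := iso e v'
    simp [Te, Tv', form_add_left, form_add_right, form_smul_left, form_smul_right, ev, vv,
      ev', vv', hs, cj_ne_zero.1 hl0] at this
  have t3 : (3 : F) = 0 := CharP.cast_eq_zero F 3
  have h3 : g.1.1 * (g.1.1 * g.1.1) = m ^ 3 • 1 := by
    refine Matrix.ext_iff_mulVec.2 fun x => ?_
    obtain ⟨a, c, hx⟩ := fr x
    generalize hermForm 3 F q x v = b at hx
    subst hx
    simp only [← mulVec_mulVec, mulVec_add, mulVec_smul, Te, Tv', hv, smul_mulVec, one_mulVec]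
    linear_combination (norm := module) t3 • ((a * m * m * s) • v + (b * m * m * t) • e +
      (b * m * m * r + b * m * s * t) • v)
  obtain rfl : m = 1 := by
    have := congrArg det h3
    rw [det_mul, det_mul, g.1.2, det_smul, det_one, Fintype.card_fin] at this
    exact cube_inj (cube_inj (by linear_combination -this))
  refine mem_ucubics_unip ha' (by rw [h3]; simp) (x := v') ?_
  rw [Fintype.linearIndependent_iff]
  intro (c : Fin 3 → F) hc
  have hc : c 0 • v' + c 1 • (g.1.1 *ᵥ v') + c 2 • (g.1.1 *ᵥ (g.1.1 *ᵥ v')) = 0 := by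
    rw [← hc, Fin.sum_univ_three]; rfl
  simp only [Tv', mulVec_add, mulVec_smul, Te, hv] at hc
  have h4 := Fintype.linearIndependent_iff.1 hi
    ![(c 1 + 2 * c 2) * t, c 1 * r + c 2 * (t * s + 2 * r), c 0 + c 1 + c 2] (by
      simp only [Fin.sum_univ_three, cons_val_zero, cons_val_one, cons_val_two, vecHead, vecTail,
        Function.comp, Fin.succ_zero_eq_one, Fin.succ_one_eq_two]
      linear_combination (norm := module) hc)
  have e0 := h4 0
  have e1 := h4 1
  have e2 := h4 2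
  simp [ht] at e0 e1 e2
  have c2 : c 2 = 0 := by
    have : c 2 * (t * s) = 0 := by linear_combination e1 - r * e0
    simpa [ht, hs] using this
  have c1 : c 1 = 0 := by linear_combination e0 - 2 * c2
  have c0 : c 0 = 0 := by linear_combination e2 - c1 - c2
  intro i; fin_cases i <;> assumption

theorem cov_psu3 : Cov (PSU 3 F q) := by
  obtain ⟨a, h1, h2⟩ := exists_as F q
  exact cov_quot (good_points (by norm_num)) (good_ucubics h2) (cover_su3 h2 h1)

end H82.Cov2
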