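import Mathlib
import Cfsg.Agent.Lib.Cov2.SpEven
import Cfsg.Agent.Lib.Forms.Perp
import Cfsg.Agent.Lib.Inv2.Basic

/-!
The two families of subgroups covering `Sp₆(3^a)`.
-/

set_option autoImplicit false
set_option linter.unusedSectionVars false

namespace H82.Cov2

open Polynomial Module

variable {F V G : Type*} [Field F] [AddCommGroup V] [Module F V] [Group G]
variable {B : LinearMap.BilinForm F V} {ρ : G →* Module.End F V} {Z : Subgroup G}

theorem indep_of_gram {ι : Type*} [Fintype ι] (B : LinearMap.BilinForm F V) (u : ι → V)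
    (h : ∀ c : ι → F, (∀ j, ∑ i, c i * B (u i) (u j) = 0) → ∀ i, c i = 0) :
    LinearIndependent F u := by
  rw [Fintype.linearIndependent_iff]
  intro c hc
  refine h c fun j => ?_
  have := congrArg (fun v => B v (u j)) hc
  simpa [map_sum, LinearMap.sum_apply] using this

theorem SpData.nondeg (h : SpData B ρ Z) : B.Nondegenerate :=
  ⟨h.nd, fun x hx => h.nd x fun y => by rw [h.swap, hx, neg_zero]⟩

theorem SpData.refl (h : SpData B ρ Z) : B.IsRefl := fun x y hxy => by
  rw [h.swap, hxy, neg_zero]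

theorem indep_pow {θ : End F V} {f : F[X]} (hf : Irreducible f) {x : V} (hx : x ≠ 0)
    (h0 : aeval θ f x = 0) {k : ℕ} (hk : k ≤ f.natDegree) :
    LinearIndependent F fun i : Fin k => (θ ^ (i : ℕ)) x := by
  rw [Fintype.linearIndependent_iff]
  intro c hc
  let r : F[X] := ∑ i : Fin k, monomial (i : ℕ) (c i)
  have hr : aeval θ r x = 0 := by
    rw [← hc]
    simp [r, map_sum, LinearMap.sum_apply, aeval_monomial, Algebra.algebraMap_eq_smul_one]
  have hc' : ∀ i : Fin k, r.coeff i = c i := by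
    intro i
    simp only [r, finsetSum_coeff, coeff_monomial]
    rw [Finset.sum_eq_single i (fun j _ hj => if_neg fun h => hj (Fin.ext h)) (by simp), if_pos rfl]
  by_cases hr0 : r = 0
  · intro i; rw [← hc', hr0, coeff_zero]
  exfalso
  have hd : r.degree < k := degree_sum_fin_lt' c
  have h1 : IsCoprime f r := hf.coprime_iff_not_dvd.2 fun hdvd => by
    have h2 := natDegree_le_of_dvd hdvd hr0
    have h3 := (natDegree_lt_iff_degree_lt hr0).2 hd
    omega
  obtain ⟨a, b, hab⟩ := h1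
  have := congrArg (fun p => aeval θ p x) hab
  simp only [map_add, map_mul, LinearMap.add_apply, End.mul_apply, h0, hr, map_zero, map_one,
    End.one_apply, add_zero] at this
  exact hx this.symm
where
  degree_sum_fin_lt' {k : ℕ} (c : Fin k → F) :
      (∑ i : Fin k, monomial (i : ℕ) (c i) : F[X]).degree < k :=
    (degree_sum_le _ _).trans_lt <| (Finset.sup_lt_iff <| WithBot.bot_lt_coe k).2 fun i _ =>
      (degree_monomial_le _ _).trans_lt <| WithBot.coe_lt_coe.2 i.is_lt

variable [FiniteDimensional F V]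

theorem SpData.two_mul_le (h : SpData B ρ Z) {ι : Type*} [Fintype ι] {u : ι → V}
    (hu : LinearIndependent F u) (h0 : ∀ i j, B (u i) (u j) = 0) :
    2 * Fintype.card ι ≤ finrank F V := by
  have h1 := H28.PQ.TotSing.two_mul_finrank_le (P := H28.PQ.ofAlt B h.alt) h.nd
    ((H28.PQ.ofAlt B h.alt).totSing_span (s := Set.range u) (fun _ _ => trivial) (by
    rintro _ ⟨i, rfl⟩ _ ⟨j, rfl⟩; exact h0 i j))
  rwa [finrank_span_eq_card hu] at h1

theorem SpData.exists_dual (h : SpData B ρ Z) {ι : Type*} [DecidableEq ι] {u : ι → V}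
    (hu : LinearIndependent F u) (j : ι) : ∃ y, ∀ i, B (u i) y = if i = j then 1 else 0 := by
  obtain ⟨g, hg⟩ := (H28.PQ.ofAlt B h.alt).exists_dual_family h.nd u hu
  exact ⟨g j, fun i => hg i j⟩

theorem SpData.witt (h : SpData B ρ Z) {ι : Type*} [Finite ι] {u v : ι → V}
    (hu : LinearIndependent F u) (hv : LinearIndependent F v)
    (hB : ∀ i j, B (v i) (v j) = B (u i) (u j)) : ∃ a, ∀ i, ρ a (u i) = v i := by
  obtain ⟨t, ht, ht'⟩ := H28.witt_alt_family B h.nd h.alt u v hu hv hB
  obtain ⟨a, ha⟩ := h.surj t ht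
  exact ⟨a, fun i => by rw [ha]; exact ht' i⟩

theorem SpData.indep_pair (h : SpData B ρ Z) {x y : V} (hxy : B x y = 1) :
    LinearIndependent F ![x, y] := by
  refine indep_of_gram B _ fun c hc => ?_
  have h0 := hc 0
  have h1 := hc 1
  simp [Fin.sum_univ_two, h.alt, h.swap y x, hxy] at h0 h1
  intro i; fin_cases i <;> simp [h0, h1]

variable [Finite G]

/-- stabilisers of hyperbolic planes -/
def planes (B : LinearMap.BilinForm F V) (ρ : G →* Module.End F V) : Set (Subgroup G) :=
  {H | ∃ x y, B x y = 1 ∧ H = sst ρ (Submodule.span F (Set.range ![x, y]))}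

theorem good_planes (h : SpData B ρ Z) (h3 : 3 ≤ finrank F V) : Good Z (planes B ρ) where
  ne := by
    rintro _ ⟨x, y, hxy, rfl⟩ htop
    have h1 := LinearMap.BilinForm.finrank_orthogonal h.nondeg
      (Submodule.span F (Set.range ![x, y]))
    rw [finrank_span_eq_card (h.indep_pair hxy), Fintype.card_fin] at h1
    obtain ⟨z, hz, hz0⟩ := Submodule.exists_mem_ne_zero_of_ne_bot
      (p := B.orthogonal (Submodule.span F (Set.range ![x, y]))) (by
        intro h2; rw [h2, finrank_bot] at h1; omega)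
    have hx : B x z = 0 := hz x (Submodule.subset_span ⟨0, rfl⟩)
    have hy : B y z = 0 := hz y (Submodule.subset_span ⟨1, rfl⟩)
    obtain ⟨g, hg⟩ := h.exists_tv (x + z) 1
    have h2 : g ∈ sst ρ (Submodule.span F (Set.range ![x, y])) := htop ▸ Subgroup.mem_top g
    have h4 := h2 y (Submodule.subset_span ⟨1, rfl⟩)
    rw [hg, Submodule.mem_span_range_iff_exists_fun] at h4
    obtain ⟨c, hc⟩ := h4
    apply hz0
    have h5 := congrArg (B x) hc
    have h6 := congrArg (B y) hc
    simp [Fin.sum_univ_two, h.alt, h.swap y x, h.swap z y, hxy, hx, hy] at hc h5 h6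
    rw [h5, h6] at hc
    linear_combination (norm := module) -hc
  le := by
    rintro _ ⟨x, y, -, rfl⟩ g hg
    obtain ⟨c, hc⟩ := h.cen g hg
    exact smul_mem_sst _ (c := c) fun v => by rw [hc]; rfl
  conj := by
    rintro _ ⟨x, y, hxy, rfl⟩ _ ⟨x', y', hxy', rfl⟩
    obtain ⟨a, ha⟩ := h.witt (h.indep_pair hxy) (h.indep_pair hxy') fun i j => by
      fin_cases i <;> fin_cases j <;> simp [h.alt, h.swap y x, h.swap y' x', hxy, hxy']
    exact ⟨a, fun g hg => conj_mem_sst (map_span_range _ ha) hg⟩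

/-- non-degenerate subspaces -/
def ND (B : LinearMap.BilinForm F V) (W : Submodule F V) : Prop :=
  ∀ x ∈ W, (∀ y ∈ W, B x y = 0) → x = 0

theorem ind_of (h : SpData B ρ Z) (h6 : finrank F V = 6) {g : G}
    (hg : ¬ ∃ H ∈ planes B ρ, g ∈ H) (W : Submodule F V) (hW : g ∈ sst ρ W) (hn : ND B W) :
    W = ⊥ ∨ W = ⊤ := by
  have two : ∀ W : Submodule F V, g ∈ sst ρ W → ND B W → finrank F W ≠ 2 := by
    intro W hW hn h2
    obtain ⟨x, hx, hx0⟩ := Submodule.exists_mem_ne_zero_of_ne_bot (p := W) (by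
      intro h3; rw [h3, finrank_bot] at h2; omega)
    obtain ⟨y, hy, hxy⟩ : ∃ y ∈ W, B x y ≠ 0 := by
      by_contra h3; push Not at h3; exact hx0 (hn x hx h3)
    have h3 : B x ((B x y)⁻¹ • y) = 1 := by simp [hxy]
    refine hg ⟨_, ⟨x, _, h3, rfl⟩, ?_⟩
    have : Submodule.span F (Set.range ![x, (B x y)⁻¹ • y]) = W := by
      apply Submodule.eq_of_le_of_finrank_eq
      · rw [Submodule.span_le]
        rintro _ ⟨i, rfl⟩
        fin_cases i
        · exact hx
        · exact W.smul_mem _ hy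
      · rw [finrank_span_eq_card (h.indep_pair h3), h2, Fintype.card_fin]
    rwa [this]
  have hd : Disjoint W (B.orthogonal W) := Submodule.disjoint_def.2 fun x hx hx' =>
    hn x hx fun y hy => h.refl _ _ (hx' y hy)
  have he := H66.even_finrank_of_alt (B.restrict W)
    (B.nondegenerate_restrict_of_disjoint_orthogonal h.refl hd) fun x => h.alt x
  have hle := W.finrank_le
  have h2 := two W hW hn
  have h4 : finrank F (B.orthogonal W) ≠ 2 := by
    refine two _ (fun v hv w hw => ?_) fun x hx hx' => ?_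
    · rw [← rho_inv' ρ g w, h.iso]
      exact hv _ ((sst ρ W).inv_mem hW w hw)
    · have h5 : x ∈ B.orthogonal (B.orthogonal W) := fun y hy => h.refl _ _ (hx' y hy)
      rw [LinearMap.BilinForm.orthogonal_orthogonal h.nondeg h.refl] at h5
      exact Submodule.disjoint_def.1 hd x h5 hx
  rw [LinearMap.BilinForm.finrank_orthogonal h.nondeg, h6] at h4
  obtain ⟨k, hk⟩ := he
  by_cases h0 : finrank F W = 0
  · exact Or.inl (Submodule.finrank_eq_zero.1 h0)
  · exact Or.inr (Submodule.eq_top_of_finrank_eq (by omega))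

/-- self-adjoint -/
def SA (B : LinearMap.BilinForm F V) (s : End F V) : Prop := ∀ x y, B (s x) y = B x (s y)

theorem SA.pow {s : End F V} (hs : SA B s) (k : ℕ) : SA B (s ^ k) := by
  induction k with
  | zero => intro x y; rfl
  | succ k ih => intro x y; rw [pow_succ, End.mul_apply, ih, hs, ← End.mul_apply s, ← pow_succ',
      pow_succ]

theorem SA.aeval {s : End F V} (hs : SA B s) (p : F[X]) : SA B (aeval s p) := by
  induction p using Polynomial.induction_on' with
  | add p q hp hq => intro x y; simp [hp x y, hq x y]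
  | monomial n a => intro x y; simp [aeval_monomial, hs.pow n x y]

theorem SA.self [CharP F 3] (h : SpData B ρ Z) {s : End F V} (hs : SA B s) (x : V) :
    B (s x) x = 0 := by
  have h1 := hs x x
  rw [h.swap x] at h1
  have h3 : (3 : F) = 0 := CharP.cast_eq_zero F 3
  linear_combination -h1 + B (s x) x * h3

/-- the normaliser of a cubic field structure -/
def tst (ρ : G →* Module.End F V) (θ : End F V) : Subgroup G :=
  toSub { carrier := {g | ∃ c : F, θ * ρ g = ρ g * θ + c • ρ g}
          mul_mem' := by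
            rintro a b ⟨c, hc⟩ ⟨d, hd⟩
            refine ⟨c + d, ?_⟩
            rw [map_mul, ← mul_assoc, hc, add_mul, mul_assoc, hd, mul_add, smul_mul_assoc,
              mul_smul_comm, add_smul, mul_assoc]
            abel
          one_mem' := ⟨0, by simp⟩ }

theorem irred_as {a : F} (ha : ∀ x : F, x ^ 3 - x ≠ a) :
    Irreducible (X ^ 3 - X - C a : F[X]) ∧ (X ^ 3 - X - C a : F[X]).natDegree = 3 := by
  have hd : (X ^ 3 - X - C a : F[X]).natDegree = 3 := by compute_degree!
  refine ⟨?_, hd⟩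
  rw [irreducible_iff_roots_eq_zero_of_degree_le_three (by omega) (by omega),
    Multiset.eq_zero_iff_forall_notMem]
  intro x hx
  have := isRoot_of_mem_roots hx
  simp only [IsRoot, eval_sub, eval_pow, eval_X, eval_C, sub_eq_zero] at this
  exact ha x this

theorem exists_frame [CharP F 3] (h : SpData B ρ Z) (h6 : finrank F V = 6) {a : F}
    (ha : ∀ x : F, x ^ 3 - x ≠ a) {θ : End F V} (hs : SA B θ)
    (hθ : ∀ v, θ (θ (θ v)) = θ v + a • v) : ∃ x y : V,
      LinearIndependent F ![x, θ x, θ (θ x), y, θ y, θ (θ y)] ∧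
      ∀ i j, B (![x, θ x, θ (θ x), y, θ y, θ (θ y)] i) (![x, θ x, θ (θ x), y, θ y, θ (θ y)] j) =
        !![0, 0, 0, 0, 0, 1; 0, 0, 0, 0, 1, 0; 0, 0, 0, 1, 0, 1;
          0, 0, -1, 0, 0, 0; 0, -1, 0, 0, 0, 0; -1, 0, -1, 0, 0, 0] i j := by
  obtain ⟨x, hx⟩ : ∃ x : V, x ≠ 0 := by
    have : Nontrivial V := Module.nontrivial_of_finrank_pos (R := F) (by omega)
    exact exists_ne 0
  obtain ⟨hf, hd⟩ := irred_as ha
  have hi := indep_pow (θ := θ) hf hx (by
    simp [pow_succ, hθ, Algebra.algebraMap_eq_smul_one]) (k := 3) hd.ge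
  obtain ⟨y, hy⟩ := h.exists_dual hi 2
  have y0 : B x y = 0 := by simpa using hy 0
  have y1 : B x (θ y) = 0 := by simpa [hs x] using hy 1
  have y2 : B x (θ (θ y)) = 1 := by simpa [pow_succ, hs _ y, hs x] using hy 2
  have s1 : ∀ v, B v (θ v) = 0 := fun v => by rw [← hs, hs.self h]
  have s2 : ∀ v, B v (θ (θ v)) = 0 := fun v => by rw [← hs, h.alt]
  have z0 : B y x = 0 := by rw [h.swap, y0, neg_zero]
  have z1 : B y (θ x) = 0 := by rw [h.swap, hs, y1, neg_zero]
  have z2 : B y (θ (θ x)) = -1 := by rw [h.swap, hs, hs, y2]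
  have hG : ∀ i j, B (![x, θ x, θ (θ x), y, θ y, θ (θ y)] i)
      (![x, θ x, θ (θ x), y, θ y, θ (θ y)] j) =
        !![0, 0, 0, 0, 0, 1; 0, 0, 0, 0, 1, 0; 0, 0, 0, 1, 0, 1;
          0, 0, -1, 0, 0, 0; 0, -1, 0, 0, 0, 0; -1, 0, -1, 0, 0, 0] i j := by
    have hs' : ∀ u v, B (θ u) v = B u (θ v) := hs
    intro i j
    fin_cases i <;> fin_cases j <;>
      simp [hs', hθ, h.alt, s1, s2, y0, y1, y2, z0, z1, z2]
  refine ⟨x, y, indep_of_gram B _ fun c hc => ?_, hG⟩
  simp only [hG] at hc
  have h0 := hc 0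
  have h1 := hc 1
  have h2 := hc 2
  have h3 := hc 3
  have h4 := hc 4
  have h5 := hc 5
  simp [Fin.sum_univ_six] at h0 h1 h2 h3 h4 h5
  simp [h0, h3] at h2 h5
  intro i; fin_cases i <;> simp [h0, h1, h2, h3, h4, h5]

/-- stabilisers of cubic field structures -/
def cubics (B : LinearMap.BilinForm F V) (ρ : G →* Module.End F V) (a : F) : Set (Subgroup G) :=
  {H | ∃ θ, SA B θ ∧ (∀ v, θ (θ (θ v)) = θ v + a • v) ∧ H = tst ρ θ}

theorem good_cubics [CharP F 3] (h : SpData B ρ Z) (h6 : finrank F V = 6) {a : F}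
    (ha : ∀ x : F, x ^ 3 - x ≠ a) : Good Z (cubics B ρ a) where
  ne := by
    rintro _ ⟨θ, hs, hθ, rfl⟩ htop
    obtain ⟨u, hu⟩ : ∃ x : V, x ≠ 0 := by
      have : Nontrivial V := Module.nontrivial_of_finrank_pos (R := F) (by omega)
      exact exists_ne 0
    obtain ⟨g, hg⟩ := h.exists_tv u 1
    obtain ⟨c, hc⟩ : g ∈ tst ρ θ := htop ▸ Subgroup.mem_top g
    obtain ⟨v, hv⟩ := h.exists_ne hu
    have s1 : B u (θ u) = 0 := by rw [← hs, hs.self h]
    have h1 := LinearMap.congr_fun hc u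
    have h2 := LinearMap.congr_fun hc v
    simp [hg, h.alt, s1, hv, hu] at h1 h2
    simp [h1] at h2
    have h3 := hθ u
    simp only [h2, map_smul, smul_smul, ← add_smul] at h3
    have h4 := smul_left_injective F hu h3
    exact ha (B u (θ v)) (by linear_combination h4)
  le := by
    rintro _ ⟨θ, -, -, rfl⟩ g hg
    obtain ⟨c, hc⟩ := h.cen g hg
    exact ⟨0, by rw [hc]; simp⟩
  conj := by
    rintro _ ⟨θ, hs, hθ, rfl⟩ _ ⟨θ', hs', hθ', rfl⟩
    obtain ⟨x, y, hi, hG⟩ := exists_frame h h6 ha hs hθ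
    obtain ⟨x', y', hi', hG'⟩ := exists_frame h h6 ha hs' hθ'
    obtain ⟨t, ht⟩ := h.witt hi hi' fun i j => by rw [hG, hG']
    have h1 : θ' * ρ t = ρ t * θ := by
      refine (basisOfLinearIndependentOfCardEqFinrank hi (by simp [h6])).ext fun i => ?_
      have t0 := ht 0
      have t1 := ht 1
      have t2 := ht 2
      have t3 := ht 3
      have t4 := ht 4
      have t5 := ht 5
      simp at t0 t1 t2 t3 t4 t5
      fin_cases i <;> simp [t0, t1, t2, t3, t4, t5, hθ, hθ']
    have h2 : θ * ρ t⁻¹ = ρ t⁻¹ * θ' := by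
      ext v
      rw [← rho_inv' ρ t v]
      have := LinearMap.congr_fun h1 (ρ t⁻¹ v)
      simp only [End.mul_apply] at this ⊢
      rw [this, rho_inv, rho_inv]
    refine ⟨t, ?_⟩
    rintro g ⟨c, hc⟩
    refine ⟨c, ?_⟩
    rw [map_mul, map_mul, ← mul_assoc, ← mul_assoc, h1, mul_assoc (ρ t), hc, mul_add, add_mul,
      mul_assoc, mul_assoc, h2, mul_smul_comm, smul_mul_assoc]
    simp only [mul_assoc]

end H82.Cov2
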